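import Cfsg.Agent.H0.Gl2
import Cfsg.Agent.H0.MS44.Main
import Cfsg.Agent.S0245
set_option maxRecDepth 100000
set_option Elab.async false
namespace H0.IS44
open Cfsg BN Matrix
noncomputable def C := ((mcRC r4 4).reix (finSumFinEquiv (m := 2) (n := 2)))
theorem hC : Rd r4 (finSumFinEquiv (m := 2) (n := 2)) C := (rd_rc _ _)
def c : List ℕ := [0x773e042f, 0xc75ecd01, 0x40415550, 0x810c001, 0x4010e491, 0x8fdfcb01, 0x51d437c5, 0x91fea380, 0x3c6ab87, 0x2810d049, 0xbc301cfa, 0xec20387f, 0xa4300c2a, 0xe420082b, 0xf410b4d1, 0x4410bcdd, 0x2c10b0d9, 0x981068b5]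
def ds : List (List ℕ) := [[4, 1, 4, 5, 1, 2, 5, 0, 1, 5, 5, 5, 4, 1, 4, 5, 1, 2, 5, 0, 1, 5, 5, 5, 4, 1, 4, 5, 1, 2, 5, 0, 1, 5, 5, 5, 4, 1, 4, 5, 1, 2, 5, 0, 1, 5, 5, 5, 4, 1, 4, 5, 1, 2, 5, 0, 1, 5, 5, 5], [3, 5, 2, 4, 0, 1], [7, 7, 7, 7], [6, 7, 6, 8, 8, 6, 7, 7, 6, 8], [8, 6, 8, 8, 6, 7, 7, 6, 8, 8, 6], [10, 10, 10, 10, 10], [9, 10, 9, 11, 9, 11, 11], [12, 12], [11, 11, 11, 9, 11, 9, 10], [14, 14, 14, 14], [15, 13, 15, 15, 12], [15, 15, 13, 14, 12, 15]]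
noncomputable def ι := ιSp 2 G4
theorem ex : ∀ x < 6, Ex ι C (c.getD x C.one) := ex_all (ex_Sp hC 1 0x4014010 (by decide +kernel) (by decide +kernel)) (by decide +kernel)
noncomputable def g := gOf ι C c ds 6 ex
theorem cod : C.Cod ι g c := cod_gOf (by decide +kernel)
theorem rel : ∀ w ∈ MS44.B.map (sh 6), ev g w = 1 := (H0.all_take_done (H0.all_take_step (H0.all_take_zero _ (MS44.B.map (sh 6))) (C.rel_one ιSp_inj cod (W := ((MS44.B.map (sh 6)).drop 0).take 62) (by decide +kernel))) (by decide +kernel))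
theorem card : Nat.card (Matrix.symplecticGroup (Fin 2) G4) = 979200 := by
  exact (Cfsg.Agent.S0245.result c4 2).trans (by decide +kernel)
theorem iso : Nonempty (PG 12 MS44.B ≃* (Matrix.symplecticGroup (Fin 2) G4)) :=
  iso_s cod rel (MS44.simple (Pres.pg 12 MS44.B)) (MS44.card (Pres.pg 12 MS44.B)) card (by decide +kernel)
theorem isoP : Nonempty (PG 12 MS44.B ≃* PSp 2 G4) :=
  haveI := MS44.simple (Pres.pg 12 MS44.B)
  iso_cen this (perfect_of_simple (by rw [MS44.card (Pres.pg 12 MS44.B)]; exact Nat.not_prime_of_dvd_of_lt (m := 2) (by decide) le_rfl (by decide))) iso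
end H0.IS44
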