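import Cfsg.Agent.H0.PHe
import Cfsg.Agent.H0.EHeS.Main
import Cfsg.Agent.H0.IS44
theorem H0.EHeS.sub : ∃ L : Subgroup ((H0.MHe.m H0.PHe.P).pst [0]), L.Normal ∧ L.index = 2 ∧ Nonempty (L ≃* Matrix.symplecticGroup (Fin 2) H0.G4) := by
  haveI := H0.MHe.fin H0.PHe.P
  obtain ⟨e⟩ := H0.EHeS.S_iso (H0.MHe.m H0.PHe.P) (H0.MHe.mR H0.PHe.P) (H0.MHe.base H0.PHe.P) (H0.MHe.card H0.PHe.P)
  obtain ⟨f⟩ := H0.IS44.iso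
  exact H0.sub_two (H0.EHeS.S_fix (H0.MHe.m H0.PHe.P) (H0.MHe.mR H0.PHe.P)) (f.symm.trans e) H0.IS44.card (H0.MHe.card_stab H0.PHe.P) (by decide)
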