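import Cfsg.Agent.H0.TT

namespace H0
open BN Subgroup Cfsg

theorem index_of_card {G : Type*} [Group G] {H : Subgroup G} {a b n : ℕ} (hG : Nat.card G = a) (hH : Nat.card H = b)
    (h : a = b * n) (hb : 0 < b) : H.index = n :=
  Nat.eq_of_mul_eq_mul_left hb (by rw [← h, ← hG, ← hH, card_mul_index])

end H0
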