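import Cfsg.Agent.H0.M24x
import Cfsg.Agent.H0.Gol

/-! Invariant subspaces of the permutation module of the Mathieu group of degree 24. -/

namespace H0
open H6 Cfsg Finset MulAction St
open scoped Pointwise
set_option maxRecDepth 100000
abbrev Wd := GolayPt → ZMod 2
def act (g : M24) (w : Wd) : Wd := fun p => w ((g : Equiv.Perm GolayPt).symm p)
theorem supp_act (g : M24) (w : Wd) : support₂ (act g w) = g • support₂ w := supp_comp _ w
theorem act_code (g : M24) {w : Wd} : act g w ∈ golayCode ↔ w ∈ golayCode := by rw [mem_code_iff_support, supp_act, smul_mem_CC', mem_code_iff_support]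
theorem supp_zero : support₂ (0 : Wd) = ∅ := by decide +kernel
theorem supp_one : support₂ (1 : Wd) = univ := by decide +kernel
variable {W : Submodule (ZMod 2) Wd} (hW : ∀ σ ∈ M24, ∀ w ∈ W, (fun p => w (σ.symm p)) ∈ W)
include hW
theorem inv_act (g : M24) {w : Wd} (h : w ∈ W) : act g w ∈ W := hW g g.2 w h
theorem inv_tr {w w' : Wd} (h : w ∈ W) (e : ∃ g : M24, g • support₂ w = support₂ w') : w' ∈ W :=
  e.elim fun g e => support₂_inj ((supp_act g w).trans e) ▸ inv_act hW g h
theorem code_le {w : Wd} (h : w ∈ W) (hc : w ∈ golayCode) (h0 : w ≠ 0) (h1 : w ≠ 1) : golayCode ≤ W := by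
  have k : ∀ w ∈ W, support₂ w ∈ octads → golayCode ≤ W := fun w h o => code_ind W fun _ o' => inv_tr hW h (tr_octad o o')
  have x : ∀ a b, decW a ∈ W → decW b ∈ W → (isCw (a ^^^ b) && Nat.beq (pc (a ^^^ b)) 8) = true → golayCode ≤ W := fun a b ha hb e =>
    k _ (decW_xor a b ▸ W.add_mem ha hb) (by rw [support_decW]; exact dec_mem_octads e)
  have hc := mem_code_iff_support.1 hc
  rcases CC_card hc with e | e | e | e | e
  · exact (h0 (support₂_inj ((card_eq_zero.1 e).trans supp_zero.symm))).elim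
  · exact k w h (mem_octads.2 ⟨hc, e⟩)
  · have t : ∀ m, (isCw m && Nat.beq (pc m) 12) = true → decW m ∈ W := fun m hm =>
      inv_tr hW h (tr_dodecad (mem_dodecads.2 ⟨hc, e⟩) (support_decW m ▸ dec_mem_dodecads hm))
    exact x 0x5335f 0xaf101f (t _ (by decide +kernel)) (t _ (by decide +kernel)) (by decide +kernel)
  · have t : ∀ m, (isCw m && Nat.beq (pc m) 8) = true → decW (16777215 ^^^ m) ∈ W := fun m hm => inv_tr hW h (by
      obtain ⟨g, hg⟩ := tr_octad (mem_octads.2 ⟨CC_compl hc, by rw [card_compl, card_pt, e]⟩) (dec_mem_octads hm)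
      exact ⟨g, by rw [support_decW, dec_compl, ← hg, smul_compl, compl_compl]⟩)
    exact x _ _ (t 0x149f (by decide +kernel)) (t 0x5a1007 (by decide +kernel)) (by decide +kernel)
  · exact (h1 (support₂_inj (((card_eq_iff_eq_univ _).1 (e.trans card_pt.symm)).trans supp_one.symm))).elim
theorem sub_code (hle : W ≤ golayCode) : W = ⊥ ∨ W = Submodule.span (ZMod 2) {1} ∨ W = golayCode := by
  by_cases h : ∃ w ∈ W, w ≠ 0 ∧ w ≠ 1
  · obtain ⟨w, h, h0, h1⟩ := h
    exact Or.inr (Or.inr (le_antisymm hle (code_le hW h (hle h) h0 h1)))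
  push Not at h
  by_cases h1 : (1 : Wd) ∈ W
  · refine Or.inr (Or.inl (le_antisymm (fun w hw => ?_) ((Submodule.span_singleton_le_iff_mem _ _).2 h1)))
    by_cases c : w = 0
    exacts [c ▸ zero_mem _, h w hw c ▸ Submodule.mem_span_singleton_self _]
  · exact Or.inl (eq_bot_iff.2 fun w hw => by_contra fun c => h1 (h w hw c ▸ hw))
theorem even_le {w : Wd} (h : w ∈ W) (hc : w ∉ golayCode) : ∀ v : Wd, ∑ p, v p = 0 → v ∈ W := by
  obtain ⟨u, hu, h4⟩ := coset_ne card_pt card_golay golay_min w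
  rw [norm_eq] at h4
  obtain ⟨k, hk⟩ : ∃ k, (support₂ u).card = k := ⟨_, rfl⟩
  have k0 : k ≠ 0 := fun e => hc (by
    obtain rfl : u = 0 := support₂_inj ((card_eq_zero.1 (hk.trans e)).trans supp_zero.symm)
    simpa using hu)
  have hs : ∀ k ≤ 4, k ≠ 0 → pc (2 ^ k - 1) = k ∧ pc (2 ^ (k + 1) - 2) = k ∧ pc ((2 ^ (k + 1) - 2) ^^^ (2 ^ k - 1)) = 2 ∧
      allL (fun t => inM t && Nat.beq (H6.img t (2 ^ k - 1)) (2 ^ k - 1)) [0x845693d90a64ccdbd5c4a15f218820, 0x722b2636e43c68b9d9ea4c0a618820] = true ∧ 2 ^ k - 1 < 2 ^ 24 := by decide +kernel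
  obtain ⟨s1, s2, s3, s4, s5⟩ := hs k (hk ▸ h4) k0
  obtain ⟨σ, hσ⟩ := tr_set (s := support₂ u) (t := dec (2 ^ k - 1)) (by rw [card_dec, s1, hk]) (by omega)
  obtain ⟨τ, hτ⟩ := tr_set (s := dec (2 ^ k - 1)) (t := dec (2 ^ (k + 1) - 2)) (by rw [card_dec, card_dec, s1, s2]) (by rw [card_dec]; omega)
  have e1 : support₂ (act σ u) = dec (2 ^ k - 1) := (supp_act ..).trans hσ
  have hu : act σ u - act σ w ∈ golayCode := (act_code σ).2 hu
  have h := inv_act hW σ h
  generalize act σ u = u at *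
  generalize act σ w = w at *
  have D : act τ u - u ∈ W := by
    have d : act τ u - u = act τ w - w + (act τ (u - w) - (u - w)) := by ext p; simp [act]; ring
    by_cases c : u - w = 0 ∨ u - w = 1
    · rw [d, show act τ (u - w) = u - w by rcases c with c | c <;> rw [c] <;> rfl, sub_self, add_zero]
      exact W.sub_mem (inv_act hW τ h) h
    have := forall_CC (P := fun S => S ≠ ∅ → S ≠ univ → ∃ t ∈ [0x845693d90a64ccdbd5c4a15f218820, 0x722b2636e43c68b9d9ea4c0a618820], H6.img t (enc S) ^^^ enc S ≠ 0 ∧ H6.img t (enc S) ^^^ enc S ≠ 16777215)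
      (fun m => Nat.beq m 0 || Nat.beq m 16777215 || anyL (fun t => !Nat.beq (Nat.xor (H6.img t m) m) 0 && !Nat.beq (Nat.xor (H6.img t m) m) 16777215) [0x845693d90a64ccdbd5c4a15f218820, 0x722b2636e43c68b9d9ea4c0a618820])
      (by decide +kernel) (fun S h h0 h1 => by
        simp only [Bool.or_eq_true, Nat.beq_eq, anyL_iff, Bool.and_eq_true, Bool.not_eq_true', ← Bool.not_eq_true] at h
        exact h.resolve_left fun h => h.elim (fun h => h0 (enc_inj (h.trans enc_empty.symm))) fun h => h1 (enc_inj (h.trans enc_univ.symm)))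
      _ (mem_code_iff_support.1 hu) (fun e => c (Or.inl (support₂_inj (e.trans supp_zero.symm)))) fun e => c (Or.inr (support₂_inj (e.trans supp_one.symm)))
    obtain ⟨t, ht, a, b⟩ := this
    have := allL_iff.1 s4 t ht
    rw [Bool.and_eq_true, Nat.beq_eq] at this
    have gt := gd_of this.1
    have e2 : act (E t) u = u := support₂_inj (by rw [supp_act, e1, gt.smul_dec s5, this.2])
    have e3 : enc (support₂ (act (E t) (u - w) - (u - w))) = H6.img t (enc (support₂ (u - w))) ^^^ enc (support₂ (u - w)) := by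
      rw [supp_sub, enc_symmDiff, supp_act, gt.enc_smul]
    have hC := code_le hW (w := act (E t) (u - w) - (u - w)) (by
      convert W.sub_mem h (inv_act hW (E t) h) using 1
      rw [show act (E t) (u - w) = act (E t) u - act (E t) w from rfl, e2]; abel) (sub_mem ((act_code _).2 hu) hu)
      (fun e => a (by rw [← e3, e, supp_zero, enc_empty])) fun e => b (by rw [← e3, e, supp_one, enc_univ])
    have hu' : u ∈ W := by simpa using W.add_mem (hC hu) h
    exact W.sub_mem (inv_act hW τ hu') hu'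
  have D2 : (support₂ (act τ u - u)).card = 2 := by rw [supp_sub, supp_act, e1, hτ, ← dec_xor, card_dec, s3]
  intro v hv
  have : v = ∑ p, v p • (Pi.single p 1 - Pi.single none 1 : Wd) := by
    simp only [smul_sub, sum_sub_distrib, ← sum_smul, hv, zero_smul, sub_zero]
    simp only [← Pi.single_smul, smul_eq_mul, mul_one, univ_sum_single]
  rw [this]
  refine sum_mem fun p _ => W.smul_mem _ ?_
  by_cases c : p = none
  · rw [c, sub_self]; exact zero_mem _
  · exact inv_tr hW D (tr_set (by rw [D2]; revert p; decide +kernel) (by omega))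
omit hW in
theorem nofix {gs : List ℕ} (h0 : allL inM gs = true)
    (h : allLt 4096 (fun s => Nat.beq s 0 || anyL (fun t => !isCw (Nat.xor (H6.img t (Nat.mul s 4096)) (Nat.mul s 4096))) gs) = true)
    {S : Finset GolayPt} (hS : S ∉ CC) : ∃ t ∈ gs, symmDiff (E t • S) S ∉ CC := by
  have l := cw_spec (Nat.mod_lt (enc S) (show 0 < 4096 by decide))
  have hc := dec_cw_mem (Nat.mod_lt (enc S) (show 0 < 4096 by decide))
  generalize hd : dec (cw (enc S % 4096)) = c at hc
  have e : enc (symmDiff S c) % 4096 = 0 := by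
    rw [enc_symmDiff, ← hd, enc_dec l.2.2, show 4096 = 2 ^ 12 from rfl, Nat.xor_mod_two_pow]
    exact Nat.xor_eq_zero_iff.2 l.2.1.symm
  have lt := enc_lt (symmDiff S c)
  have e2 : Nat.mul (enc (symmDiff S c) / 4096) 4096 = enc (symmDiff S c) := Nat.div_mul_cancel (Nat.dvd_of_mod_eq_zero e)
  have := allLt_iff.1 h (enc (symmDiff S c) / 4096) (by omega)
  rw [e2, Bool.or_eq_true, Nat.beq_eq, anyL_iff] at this
  obtain ⟨t, ht, a⟩ := this.resolve_left fun e => hS (by
    rw [e] at e2
    rwa [symmDiff_eq_bot.1 (enc_inj (e2.symm.trans enc_empty.symm))])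
  refine ⟨t, ht, fun b => ?_⟩
  have := CC_symmDiff b (CC_symmDiff ((smul_mem_CC' (E t) c).2 hc) hc)
  rw [symmDiff_symmDiff_symmDiff_comm, smul_set_def, smul_set_def, ← smul_symmDiff, ← smul_set_def, mem_CC_isCw, enc_symmDiff, (gd_of (allL_iff.1 h0 t ht)).enc_smul] at this
  exact absurd this (by simpa using a)
end H0
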