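import Cfsg.Agent.H0.Stein3
import Cfsg.Agent.H0.PG

/-! Groups acting on graphs given by bit masks; the automorphism group of the Higman–Sims graph. -/

set_option maxRecDepth 100000
namespace H0.St
open Finset Cfsg H6 MulAction
open scoped Pointwise

def mg (n : ℕ) (A : ℕ → ℕ) : SimpleGraph (Fin n) := SimpleGraph.fromRel fun i j => (A i).testBit j = true

noncomputable def symChk (n : ℕ) (A : ℕ → ℕ) : Bool :=
  allLt n fun i => force (A i) fun a => !tb a i && allLt n fun j => !tb a j || tb (A j) i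

theorem mg_adj {n : ℕ} {A : ℕ → ℕ} (h : symChk n A = true) (i j : Fin n) : (mg n A).Adj i j ↔ (A i).testBit j = true := by
  simp only [symChk, allLt_iff, force_eq, Bool.and_eq_true, Bool.or_eq_true, Bool.not_eq_true', tb_eq] at h
  rw [mg, SimpleGraph.fromRel_adj]
  refine ⟨fun ⟨_, h1⟩ => h1.elim id fun h1 => ((h j j.2).2 i i.2).resolve_left (by simp [h1]), fun h1 => ⟨?_, .inl h1⟩⟩
  rintro rfl
  rw [(h i i.2).1] at h1; cases h1

noncomputable def grChk (R : BN.Rep) (n w : ℕ) (A : ℕ → ℕ) (T : List (List ℕ × ℕ)) : Bool :=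
  Nat.ble n R.N && allL (fun e => allLt n fun i => force (lane w e.2 i) fun j => Nat.blt j n &&
    BN.mapsW R e.1 (Nat.pow 2 i) (Nat.pow 2 j) && BN.mapsW R e.1 (A i) (A j)) T

theorem graph_hom {G : Type*} [Group G] [Finite G] (m : Model G) {n w : ℕ} {A : ℕ → ℕ} (hs : symChk n A = true)
    {T : List (List ℕ × ℕ)} (top : gen m.g (T.map Prod.fst) = ⊤) (h : grChk m.R n w A T = true) :
    ∃ ρ : G →* (mg n A ≃g mg n A), ∀ g i, (ρ g i).1 = m.φ g i := by
  simp only [grChk, Bool.and_eq_true, Nat.ble_eq, allL_iff, allLt_iff, force_eq, Nat.blt_eq] at h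
  let S : Submonoid G :=
    { carrier := {g | ∀ i < n, m.φ g i < n ∧ ∀ j < n, (A i).testBit j = true → (A (m.φ g i)).testBit (m.φ g j) = true}
      one_mem' := fun i hi => by simpa using hi
      mul_mem' := fun {a b} ha hb i hi => by
        simp only [map_mul, Equiv.Perm.mul_apply]
        exact ⟨(ha _ (hb i hi).1).1, fun j hj h => (ha _ (hb i hi).1).2 _ (hb j hj).1 ((hb i hi).2 j hj h)⟩ }
  let S' : Subgroup G := { S with
    inv_mem' := fun {a} ha => by
      have : a⁻¹ = a ^ (orderOf a - 1) := by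
        rw [inv_eq_iff_mul_eq_one, ← pow_succ', Nat.sub_add_cancel (orderOf_pos a), pow_orderOf_eq_one]
      rw [this]; exact S.pow_mem ha _ }
  have hS : ∀ g, g ∈ S' := fun g => (top.ge.trans (gen_le (K := S') fun u hu => by
    obtain ⟨e, he, rfl⟩ := List.mem_map.1 hu
    intro i hi
    obtain ⟨⟨h1, h2⟩, h3⟩ := h.2 e he i hi
    rw [m.φ_ev, BN.apply_eq m.R (hi.trans_le h.1) h2]
    exact ⟨h1, fun j hj => BN.mapsW_spec m.R h3 (hj.trans_le h.1)⟩) :) (Subgroup.mem_top g)
  refine ⟨⟨⟨fun g => ⟨⟨fun i => ⟨m.φ g i, (hS g i i.2).1⟩, fun i => ⟨m.φ g⁻¹ i, (hS _ i i.2).1⟩, fun i => ?_, fun i => ?_⟩,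
    fun {i j} => ?_⟩, ?_⟩, fun a b => ?_⟩, fun _ _ => rfl⟩
  · simp
  · simp
  · rw [mg_adj hs, mg_adj hs]
    exact ⟨fun h1 => by simpa using (hS g⁻¹ _ (hS g i i.2).1).2 _ (hS g j j.2).1 h1, (hS g i i.2).2 j j.2⟩
  · exact RelIso.ext fun i => Fin.ext (by simp [RelIso.coe_fn_mk])
  · exact RelIso.ext fun i => Fin.ext (by simp [RelIso.coe_fn_mk])

def conjIso {V W : Type*} {G : SimpleGraph V} {H : SimpleGraph W} (f : G ≃g H) : (G ≃g G) ≃* (H ≃g H) where
  toFun a := (f.symm.trans a).trans f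
  invFun a := (f.trans a).trans f.symm
  left_inv a := RelIso.ext fun x => by simp
  right_inv a := RelIso.ext fun x => by simp
  map_mul' a b := RelIso.ext fun x => by simp

theorem card22 {α : Type*} [Fintype α] [DecidableEq α] {B : Set (Finset α)} (hα : Fintype.card α = 22)
    (hB : IsSteinerSystem 3 6 B) : Nat.card (setSystemAut B) = 887040 := by
  obtain ⟨p, -, h2, -, ρ, h4, h5, -⟩ := res22 hα hB
  obtain ⟨e⟩ := equiv_of_res h4 h5 fun g _ hg => one_of_out (M := 0xc00000) [[4845570], [13062145]] (by decide +kernel) (h2 ▸ hg :)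
  rw [← Nat.card_congr e.toEquiv]
  refine card_stab_top (d := 276) ?_ (by decide)
  rw [show orb (⊤ : Subgroup M24) (dec 0xc00000) = {U | U.card = 2} from Set.ext fun U => ⟨by
    rintro ⟨g, -, rfl⟩; exact (card_smul_finset _ _).trans (by decide +kernel), fun hU =>
      (tr_set (hU.trans (by decide +kernel)) (by decide +kernel)).imp fun g hg => ⟨trivial, hg⟩⟩, ncard_subsets]
  rfl

section
variable {α : Type*} {B : Set (Finset α)}
theorem adj_none {u : Option (α ⊕ B)} : (pointBlockGraph B).Adj none u ↔ ∃ a, u = some (.inl a) := by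
  rcases u with _ | a | a <;> simp [pointBlockGraph, pointBlockRel]
theorem adj_pb {a : α} {b : B} : (pointBlockGraph B).Adj (some (.inl a)) (some (.inr b)) ↔ a ∈ b.1 := by
  simp [pointBlockGraph, pointBlockRel]

theorem card_stab_none [Fintype α] [DecidableEq α] :
    Nat.card (stabilizer (pointBlockGraph B ≃g pointBlockGraph B) (none : Option (α ⊕ B))) = Nat.card (setSystemAut B) := by
  let β : setSystemAut B → B ≃ B := fun σ => (toPerm σ.1 : Equiv.Perm (Finset α)).subtypeEquiv fun b =>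
    (Set.smul_mem_smul_set_iff (a := σ.1)).symm.trans (Set.ext_iff.1 (σ.2 : σ.1 • B = B) _)
  have hβ : ∀ σ b, (β σ b).1 = b.1.image σ.1 := fun _ _ => rfl
  have h1 : ∀ (σ : setSystemAut B) u w, pointBlockRel B ((Equiv.sumCongr σ.1 (β σ)).optionCongr u)
      ((Equiv.sumCongr σ.1 (β σ)).optionCongr w) ↔ pointBlockRel B u w := by
    rintro σ (_ | a | a) (_ | b | b) <;> simp [pointBlockRel, hβ, disjoint_im]
  let F : setSystemAut B → stabilizer (pointBlockGraph B ≃g pointBlockGraph B) (none : Option (α ⊕ B)) := fun σ =>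
    ⟨⟨(Equiv.sumCongr σ.1 (β σ)).optionCongr, fun {u w} => by
      rw [pointBlockGraph, SimpleGraph.fromRel_adj, SimpleGraph.fromRel_adj, h1, h1, (Equiv.injective _).ne_iff]⟩, rfl⟩
  have hF : ∀ σ u, (F σ).1 u = (Equiv.sumCongr σ.1 (β σ)).optionCongr u := fun _ _ => rfl
  refine (Nat.card_congr (Equiv.ofBijective F ⟨fun σ τ h => Subtype.ext (Equiv.ext fun a => ?_), fun f => ?_⟩)).symm
  · simpa [hF] using congrArg (fun f => f.1 (some (.inl a))) h
  · have h0 : f.1 none = none := f.2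
    choose s hs using fun a => adj_none.1 (h0 ▸ f.1.map_rel_iff.2 (adj_none.2 ⟨a, rfl⟩))
    have h2 : Function.Injective s := fun a b h =>
      Sum.inl.inj (Option.some.inj (f.1.injective ((hs a).trans (h ▸ (hs b).symm))))
    let σ := Equiv.ofBijective s (Finite.injective_iff_bijective.1 h2)
    have h3 : ∀ b : B, ∃ c : B, f.1 (some (.inr b)) = some (.inr c) ∧ c.1 = b.1.image σ := fun b => by
      rcases h : f.1 (some (.inr b)) with _ | a | c
      · simpa using f.1.injective (h.trans h0.symm)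
      · obtain ⟨a, rfl⟩ := σ.surjective a
        simpa using f.1.injective (h.trans (hs a).symm)
      · refine ⟨c, rfl, Finset.ext (σ.surjective.forall.2 fun a => ?_)⟩
        rw [mem_im, ← adj_pb, ← adj_pb, ← h]
        exact (show _ = some (Sum.inl (σ a)) from hs a) ▸ f.1.map_rel_iff
    refine ⟨⟨σ, mem_aut.2 fun b hb => ?_⟩, Subtype.ext (RelIso.ext ?_)⟩
    · obtain ⟨c, -, h⟩ := h3 ⟨b, hb⟩
      exact h ▸ c.2
    · rintro (_ | a | b)
      · exact h0.symm
      · exact (hs a).symm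
      · obtain ⟨c, h4, h⟩ := h3 b
        rw [h4, hF]; exact congrArg (fun x => some (Sum.inr x)) (Subtype.ext h.symm)
end

theorem srgH : srgChk 100 22 0 6 AH = true := by decide +kernel

theorem card_autH {α : Type*} [Fintype α] [DecidableEq α] {B : Set (Finset α)} (hα : Fintype.card α = 22)
    (hB : IsSteinerSystem 3 6 B) : Nat.card (pointBlockGraph B ≃g pointBlockGraph B) = 88704000 := by
  classical
  obtain ⟨φ, h1, h2⟩ := hs_iso hα hB
  haveI := Fintype.ofFinite (Option (α ⊕ B))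
  have h3 := srg_of φ h2 srgH
  haveI : IsPretransitive (pointBlockGraph B ≃g pointBlockGraph B) (Option (α ⊕ B)) := ⟨fun u v => by
    obtain ⟨a, rfl, h4⟩ := srg_iso h3 u
    obtain ⟨b, rfl, h5⟩ := srg_iso h3 v
    exact (iso_of_masks a b h4 h5).imp fun f hf => hf 0⟩
  rw [← (stabilizer (pointBlockGraph B ≃g pointBlockGraph B) (none : Option (α ⊕ B))).card_mul_index,
    index_stabilizer_of_transitive, card_stab_none, card22 hα hB, Nat.card_eq_fintype_card, h3.card]

end H0.St
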