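import Cfsg.Prelude.Def_Transfer

/-! Inner automorphisms of an extraspecial 2-group with enough commuting elements of order 4 have no complement. -/

namespace H0.Gr
open Subgroup
variable {Q : Type*} [Group Q]

structure X (z : Q) : Prop where
  ne : z ≠ 1
  sq : z * z = 1
  c : ∀ a, z * a = a * z
  ctr : ∀ a, (∀ b, Commute a b) → a = 1 ∨ a = z
  cm : ∀ a b, ¬ Commute a b → a * b = z * (b * a)

theorem X.of [Finite Q] (h : Cfsg.IsExtraspecial 2 Q) : ∃ z : Q, X z := by
  obtain ⟨y, hy, u⟩ := (Nat.card_eq_two_iff' (1 : center Q)).1 h.2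
  have k : ∀ a ∈ center Q, a = 1 ∨ a = y := fun a ha => or_iff_not_imp_left.2 fun n =>
    congrArg Subtype.val (u ⟨a, ha⟩ fun e => n (congrArg Subtype.val e))
  have n : (y : Q) ≠ 1 := fun e => hy (Subtype.ext e)
  refine ⟨y, n, (k _ (mul_mem y.2 y.2)).resolve_right fun e => n (by simpa using e), fun a => (mem_center_iff.1 y.2 a).symm,
    fun a ha => k a (mem_center_iff.2 fun b => (ha b).eq.symm), fun a b hn => ?_⟩
  have := (k _ (h.1.2.2 ▸ commutator_mem_commutator (mem_top a) (mem_top b))).resolve_left fun e => hn (commutatorElement_eq_one_iff_commute.1 e)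
  rw [← this, commutatorElement_def]; group

namespace X
variable {z : Q} (h : X z)
include h
theorem mul (a b t : Q) : Commute (a * b) t ↔ (Commute a t ↔ Commute b t) := by
  by_cases p : Commute a t
  · exact ⟨fun e => iff_of_true p (by simpa using p.inv_left.mul_left e), fun e => p.mul_left (e.1 p)⟩
  by_cases q : Commute b t
  · exact iff_of_false (fun e => p (by simpa using e.mul_left q.inv_left)) fun e => p (e.2 q)
  refine iff_of_true (show a * b * t = t * (a * b) from ?_) (iff_of_false p q)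
  rw [mul_assoc, h.cm b t q, ← mul_assoc, ← h.c, mul_assoc, ← mul_assoc a, h.cm a t p, ← mul_assoc, ← mul_assoc, h.sq, one_mul, mul_assoc]
theorem mul' (t a b : Q) : Commute t (a * b) ↔ (Commute t a ↔ Commute t b) := by
  simp only [Commute.symm_iff (a := t), h.mul]
theorem cz (t : Q) : Commute z t := h.c t

open Classical in
noncomputable def al (x : Q) (g : Q) : Q := if Commute x g then g else x * g
theorem al_mul {x : Q} (hx : x * x = z) (a b : Q) : al x (a * b) = al x a * al x b := by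
  have := h.mul' x a b
  by_cases p : Commute x a <;> by_cases q : Commute x b <;> simp only [p, q, iff_self, iff_false, true_iff, iff_true, false_iff, not_true] at this <;>
    simp only [al, p, q, this, if_true, if_false]
  · rw [← mul_assoc, p.eq, mul_assoc]
  · rw [mul_assoc]
  · rw [mul_assoc, ← mul_assoc a, show a * x = z * (x * a) from h.cm _ _ fun e => p e.symm, ← mul_assoc, ← mul_assoc, ← h.c, ← mul_assoc,
      mul_assoc z, hx, h.sq, one_mul]
theorem al_al {x : Q} (hx : x * x = z) (a : Q) : al x (al x a) = x * a * x⁻¹ := by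
  by_cases p : Commute x a
  · simp [al, p, p.eq]
  · have : ¬ Commute x (x * a) := by simp [h.mul', p]
    simp only [al, p, this, if_false]
    rw [← mul_assoc, hx, h.cm _ _ p, mul_assoc, mul_inv_cancel_right]
theorem al_comm {x y : Q} (c : Commute x y) (a : Q) : al x (al y a) = al y (al x a) := by
  by_cases p : Commute x a <;> by_cases q : Commute y a <;> simp [al, p, q, h.mul', c, c.symm, ← mul_assoc, c.eq]
theorem al_ex {x : Q} (hx : x * x = z) : ∃ α : MulAut Q, ∀ a, α a = al x a :=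
  ⟨MulEquiv.ofBijective (MonoidHom.mk' (al x) (h.al_mul hx)) ⟨fun a b (e : al x a = al x b) => by
    simpa [h.al_al hx] using congrArg (al x) e, fun a => ⟨al x (x⁻¹ * a * x), (h.al_al hx _).trans (by group)⟩⟩, fun _ => rfl⟩

theorem main {L : Subgroup (MulAut Q)} (hL : (MulAut.conj : Q →* MulAut Q).range.IsComplement' L) {x y e0 e1 e2 t : Q} (hx : x * x = z) (hy : y * y = z)
    (c : Commute x y) (h0 : ¬ Commute x e0) (h01 : Commute e1 e0) (h1 : e1 * e1 = 1) (hx1 : Commute x e1) (hy1 : Commute y e1) (ht : ¬ Commute e1 t)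
    (hx2 : Commute x e2) (hy2 : ¬ Commute y e2) (h12 : Commute e1 e2) : False := by
  have tr : ∀ u, MulAut.conj u ∈ L → ∀ t, Commute u t := fun u hu t => by
    have := DFunLike.congr_fun (disjoint_def.1 hL.disjoint ⟨u, rfl⟩ hu) t
    exact mul_inv_eq_iff_eq_mul.1 this
  have ex : ∀ x, ∃ v, x * x = z → ∃ α ∈ L, ∀ a, α a = v * al x a * v⁻¹ := fun x => by
    by_cases hx : x * x = z
    · obtain ⟨α, hα⟩ := h.al_ex hx
      obtain ⟨⟨⟨_, v, rfl⟩, l⟩, e⟩ := hL.2 α
      exact ⟨v⁻¹, fun _ => ⟨l, l.2, fun a => by rw [← hα, ← e]; simp [mul_assoc]⟩⟩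
    · exact ⟨1, fun e => (hx e).elim⟩
  choose v hv using ex
  have ai : ∀ {x}, x * x = z → ∀ a, al x a⁻¹ = (al x a)⁻¹ := fun hx a => map_inv (MonoidHom.mk' _ (h.al_mul hx)) a
  have k1 : ¬ Commute x (v x) := fun p => by
    obtain ⟨α, m, e⟩ := hv x hx
    have := tr (v x * v x * x) (by
      convert mul_mem m m using 1
      ext a
      simp only [MulAut.conj_apply, MulAut.mul_apply, e, h.al_mul hx, ai hx, h.al_al hx, show al x (v x) = v x from if_pos p]
      group) e0
    simp [h.mul, h0] at this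
  have k2 : ∀ y, y * y = z → Commute x y → (∃ t, ¬ Commute y t) → (∃ t, ¬ (Commute x t ↔ Commute y t)) → Commute y (v x) := fun y hy c n1 n2 => by
    by_contra p
    obtain ⟨α, m, e⟩ := hv x hx
    obtain ⟨β, m', e'⟩ := hv y hy
    have := tr (v x * al x (v y) * (v y * al y (v x))⁻¹) (by
      rw [show MulAut.conj (v x * al x (v y) * (v y * al y (v x))⁻¹) = α * β * (β * α)⁻¹ from eq_mul_inv_iff_mul_eq.2 (MulEquiv.ext fun a => by
        simp only [MulAut.conj_apply, MulAut.mul_apply, e, e', h.al_mul hx, h.al_mul hy, ai hx, ai hy, h.al_comm c]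
        group)]
      exact mul_mem (mul_mem m m') (inv_mem (mul_mem m' m)))
    obtain ⟨t1, n1⟩ := n1
    obtain ⟨t2, n2⟩ := n2
    have a1 := this t1
    have a2 := this t2
    rw [show al y (v x) = y * v x from if_neg p, al] at a1 a2
    split_ifs at a1 a2 <;> simp only [h.mul, Commute.inv_left_iff] at a1 a2
    · clear * - a1 n1; tauto
    · clear * - a2 n2; tauto
  have s : ∀ {y}, y * y = z → Commute y e1 → y * e1 * (y * e1) = z := fun {y} hy c => by
    rw [mul_assoc, ← mul_assoc e1, ← c.eq, mul_assoc, h1, mul_one, hy]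
  have b1 := k2 _ (s hx hx1) ((Commute.refl x).mul_right hx1) ⟨e0, by simp [h.mul, h0, h01]⟩ ⟨t, by rw [h.mul]; clear * - ht; tauto⟩
  have b2 := k2 _ hy c ⟨e2, hy2⟩ ⟨e2, fun e => hy2 (e.1 hx2)⟩
  have b3 := k2 _ (s hy hy1) (c.mul_right hx1) ⟨e2, by simp [h.mul, hy2, h12]⟩ ⟨e2, by simp [h.mul, hy2, h12, hx2]⟩
  rw [h.mul] at b1 b3
  exact k1 (b1.2 (b3.1 b2))

theorem idx (x : Q) : (centralizer {x}).index ∣ 2 := by
  by_cases p : ∃ a, ¬ Commute a x
  · obtain ⟨a, p⟩ := p
    refine index_dvd_two_iff.2 ⟨a, fun b => ?_⟩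
    simp only [mem_centralizer_singleton_iff]
    have := h.mul b a x
    by_cases q : Commute b x
    exacts [.inr q, .inl (this.2 (iff_of_false q p))]
  · exact index_dvd_two_iff.2 ⟨1, fun b => .inr (mem_centralizer_singleton_iff.2 (not_not.1 fun q => p ⟨b, q⟩))⟩

theorem pick [Finite Q] {E : Subgroup Q} (hE : 16 ≤ Nat.card E) (x y : Q) : ∃ e ∈ E, Commute e x ∧ Commute e y ∧ ∃ t, ¬ Commute e t := by
  by_contra n
  push Not at n
  have i1 : (centralizer {x} ⊓ centralizer {y}).relIndex E ≤ 2 * 2 := ((relIndex_le_of_le_right le_top index_ne_zero_of_finite).trans_eq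
    (relIndex_top_right _)).trans (index_inf_le.trans (Nat.mul_le_mul (Nat.le_of_dvd two_pos (h.idx x)) (Nat.le_of_dvd two_pos (h.idx y))))
  have i2 := ((centralizer {x} ⊓ centralizer {y}).subgroupOf E).card_mul_index
  have i3 : Nat.card ((centralizer {x} ⊓ centralizer {y}).subgroupOf E) ≤ 2 := by
    classical
    refine (Nat.card_le_card_of_injective (fun a => decide (a.1.1 = 1)) fun a b e => Subtype.ext (Subtype.ext ?_)).trans (by simp)
    have := h.ctr _ (n _ a.1.2 (mem_centralizer_singleton_iff.1 a.2.1) (mem_centralizer_singleton_iff.1 a.2.2))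
    have := h.ctr _ (n _ b.1.2 (mem_centralizer_singleton_iff.1 b.2.1) (mem_centralizer_singleton_iff.1 b.2.2))
    simp only [decide_eq_decide] at e
    grind
  rw [← relIndex] at i2
  nlinarith

theorem four {e g : Q} (he : e * e = 1) (n : ¬ Commute e g) : g * g = z ∨ g * e * (g * e) = z := by
  rcases h.ctr (g * g) fun b => (h.mul g g b).2 Iff.rfl with q | q
  · right
    rw [mul_assoc, ← mul_assoc e, h.cm _ _ n, ← mul_assoc, ← mul_assoc, ← h.c, mul_assoc z, mul_assoc z, ← mul_assoc g, q, one_mul, he, mul_one]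
  · exact .inl q

theorem fin [Finite Q] {E : Subgroup Q} (ea : Cfsg.IsElementaryAbelian 2 E) (hE : 16 ≤ Nat.card E) {L : Subgroup (MulAut Q)} :
    ¬ (MulAut.conj : Q →* MulAut Q).range.IsComplement' L := fun hL => by
  have cm : ∀ a ∈ E, ∀ b ∈ E, Commute a b := fun a ha b hb => congrArg Subtype.val (ea.1.is_comm.comm (⟨a, ha⟩ : E) ⟨b, hb⟩)
  have sq : ∀ a ∈ E, a * a = 1 := fun a ha => by simpa [pow_two] using ea.2 a ha
  obtain ⟨e0, m0, -, -, x0, n0⟩ := h.pick hE 1 1
  obtain ⟨x, hx, h0⟩ : ∃ x, x * x = z ∧ ¬ Commute x e0 := (h.four (sq _ m0) n0).elim (fun q => ⟨_, q, fun e => n0 e.symm⟩)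
    fun q => ⟨_, q, by rw [h.mul]; exact fun e => n0 (e.2 (Commute.refl _)).symm⟩
  obtain ⟨e2, m2, hx2, -, y0, n2⟩ := h.pick hE x 1
  obtain ⟨y1, a1, a2⟩ : ∃ y, Commute x y ∧ ¬ Commute e2 y := by
    by_cases q : Commute x y0
    exacts [⟨_, q, n2⟩, ⟨y0 * e0, (h.mul' ..).2 (iff_of_false q h0), by rw [h.mul']; exact fun e => n2 (e.2 (cm _ m2 _ m0))⟩]
  obtain ⟨y, hy, c, hy2⟩ : ∃ y, y * y = z ∧ Commute x y ∧ ¬ Commute y e2 := (h.four (sq _ m2) a2).elim (fun q => ⟨_, q, a1, fun e => a2 e.symm⟩)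
    fun q => ⟨_, q, a1.mul_right hx2.symm, by rw [h.mul]; exact fun e => a2 (e.2 (Commute.refl _)).symm⟩
  obtain ⟨e1, m1, hx1, hy1, t, ht⟩ := h.pick hE x y
  exact h.main hL hx hy c h0 (cm _ m1 _ m0) (sq _ m1) hx1.symm hy1.symm ht hx2.symm hy2 (cm _ m1 _ m2)
end X
end H0.Gr
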