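import Cfsg.Agent.H0.Fld2
import Cfsg.Agent.H0.ML211.Main
import Cfsg.Agent.S0243
set_option maxRecDepth 100000
set_option Elab.async false
namespace H0.IL211
open Cfsg BN Matrix
instance fp : Fact (Nat.Prime 11) := ⟨by decide⟩
noncomputable def C := (mcRC (H6.rcZ 11 4 (by decide)) 2)


def c : List ℕ := [0x1011, 0x1101, 0x480, 0xa812, 0x9811, 0x250, 0xa562, 0x9561, 0x6715, 0x5a46]
def ds : List (List ℕ) := [[0, 1, 1, 0, 0, 1, 1, 0, 0, 1, 1, 0], [0, 1, 0, 0, 0, 0, 1, 0, 1, 1, 1, 0, 1, 0, 0, 0, 0, 1, 0, 1, 1, 1], [3, 3], [3, 2, 4], [2, 4, 2], [6, 6], [7, 5, 6], [6, 5, 7, 5, 6, 5, 7]]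
noncomputable def ι := ιSL (Fin 2) (ZMod 11)
theorem hι : Function.Injective ι := ιSL_inj
theorem ex : ∀ x < 2, Ex ι C (c.getD x C.one) := ex_all (ex_SL C 11 (by decide)) (by decide +kernel)
noncomputable def g := gOf ι C c ds 2 ex
theorem cod : C.Cod ι g c := cod_gOf (by decide +kernel)
theorem rel : ∀ w ∈ ML211.B.map (sh 2), ev g w ∈ Subgroup.center _ := (H0.all_take_done (H0.all_take_step (H0.all_take_zero _ (ML211.B.map (sh 2))) (C.rel_cen hι cod (W := ((ML211.B.map (sh 2)).drop 0).take 25) (by decide +kernel))) (by decide +kernel))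
theorem card : Nat.card (Matrix.ProjectiveSpecialLinearGroup (Fin 2) (ZMod 11)) = 660 := by
  exact cardA (Cfsg.Agent.S0243.result (ZMod.card 11) 2 (by decide)) (by decide +kernel)
theorem iso : Nonempty (PG 8 ML211.B ≃* (Matrix.ProjectiveSpecialLinearGroup (Fin 2) (ZMod 11))) :=
  iso_q cod rel (ML211.simple (Pres.pg 8 ML211.B)) (ML211.card (Pres.pg 8 ML211.B)) card (by decide +kernel)
end H0.IL211
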