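import Cfsg.Agent.H0.Gl2
import Cfsg.Agent.H0.ML28.Main
import Cfsg.Agent.S0243
set_option maxRecDepth 100000
set_option Elab.async false
namespace H0.IL28
open Cfsg BN Matrix

noncomputable def C := (mcRC r8 2)


def c : List ℕ := [0x209, 0x281, 0x219, 0xb8d, 0xf4e, 0xd4f, 0x229, 0x43d, 0xa3a, 0xa32, 0x435]
def ds : List (List ℕ) := [[2, 2, 1, 2, 1, 0, 0, 2, 1, 0, 0], [2, 2, 0, 1, 2, 0, 0, 1, 2, 0, 0, 2, 1, 2, 2, 0, 1, 2, 0, 0, 1, 2, 0, 0, 2, 1, 2, 2, 0, 1, 2, 0, 0, 1, 2, 0, 0, 2, 1], [4, 4], [5, 3, 4], [3, 5, 3, 4, 3, 5], [7, 7, 7, 7, 7, 7], [8, 6], [9, 9, 9, 9, 9, 9]]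
noncomputable def ι := ιSL (Fin 2) G8
theorem hι : Function.Injective ι := ιSL_inj
theorem ex : ∀ x < 3, Ex ι C (c.getD x C.one) := ex_all (ex_SL C 2 (by decide)) (by decide +kernel)
noncomputable def g := gOf ι C c ds 3 ex
theorem cod : C.Cod ι g c := cod_gOf (by decide +kernel)
theorem rel : ∀ w ∈ ML28.B.map (sh 3), ev g w ∈ Subgroup.center _ := (H0.all_take_done (H0.all_take_step (H0.all_take_zero _ (ML28.B.map (sh 3))) (C.rel_cen hι cod (W := ((ML28.B.map (sh 3)).drop 0).take 24) (by decide +kernel))) (by decide +kernel))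
theorem card : Nat.card (Matrix.ProjectiveSpecialLinearGroup (Fin 2) G8) = 504 := by
  exact cardA (Cfsg.Agent.S0243.result c8' 2 (by decide)) (by decide +kernel)
theorem iso : Nonempty (PG 8 ML28.B ≃* (Matrix.ProjectiveSpecialLinearGroup (Fin 2) G8)) :=
  iso_q cod rel (ML28.simple (Pres.pg 8 ML28.B)) (ML28.card (Pres.pg 8 ML28.B)) card (by decide +kernel)
end H0.IL28
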