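import Cfsg.Agent.H0.Fld2
import Cfsg.Agent.H0.ML29.Main
import Cfsg.Agent.S0243
set_option maxRecDepth 100000
set_option Elab.async false
namespace H0.IL29
open Cfsg BN Matrix

noncomputable def C := (mcRC r9 2)


def c : List ℕ := [0x1011, 0x1101, 0x1031, 0x1112, 0x3580, 0x586, 0x6053, 0x5024, 0x8027, 0x4025, 0x7028]
def ds : List (List ℕ) := [[0, 1], [2, 1, 2, 1, 2, 0, 1, 1, 1, 0, 2], [4, 4, 4], [5, 5, 3, 4, 4], [3, 4, 3, 5], [7, 7, 7], [8, 8, 6, 8], [9, 9, 9]]
noncomputable def ι := ιSL (Fin 2) G9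
theorem hι : Function.Injective ι := ιSL_inj
theorem ex : ∀ x < 3, Ex ι C (c.getD x C.one) := ex_all (ex_SL C 3 (by decide)) (by decide +kernel)
noncomputable def g := gOf ι C c ds 3 ex
theorem cod : C.Cod ι g c := cod_gOf (by decide +kernel)
theorem rel : ∀ w ∈ ML29.B.map (sh 3), ev g w ∈ Subgroup.center _ := (H0.all_take_done (H0.all_take_step (H0.all_take_zero _ (ML29.B.map (sh 3))) (C.rel_cen hι cod (W := ((ML29.B.map (sh 3)).drop 0).take 25) (by decide +kernel))) (by decide +kernel))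
theorem card : Nat.card (Matrix.ProjectiveSpecialLinearGroup (Fin 2) G9) = 360 := by
  exact cardA (Cfsg.Agent.S0243.result c9 2 (by decide)) (by decide +kernel)
theorem iso : Nonempty (PG 8 ML29.B ≃* (Matrix.ProjectiveSpecialLinearGroup (Fin 2) G9)) :=
  iso_q cod rel (ML29.simple (Pres.pg 8 ML29.B)) (ML29.card (Pres.pg 8 ML29.B)) card (by decide +kernel)
end H0.IL29
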