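import Cfsg.Agent.H0.Gl2
import Cfsg.Agent.H0.ML32.Main
import Cfsg.Agent.S0243
set_option maxRecDepth 100000
set_option Elab.async false
namespace H0.IL32
open Cfsg BN Matrix
noncomputable def C := (mc2 (ZMod 2) 3 0x49 0x111 (by decide +kernel) (by decide +kernel))

def c : List ℕ := [0x113, 0x131, 0x151, 0x113, 0x167, 0xae, 0x131, 0xb3, 0x1a5, 0x191, 0x113]
def ds : List (List ℕ) := [[1, 1, 0], [1, 0, 0, 2, 1, 2, 1, 0, 2, 1], [4, 4], [5, 3, 4], [4, 3, 4, 3, 5, 3, 5, 3, 5], [7, 7], [8, 6, 7], [6, 8, 6, 8]]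
noncomputable def ι := ιSL (Fin 3) (ZMod 2)
theorem ex : ∀ x < 3, Ex ι C (c.getD x C.one) := ex_all (ex_SL C 2 (by decide)) (by decide +kernel)
noncomputable def g := gOf ι C c ds 3 ex
theorem cod : C.Cod ι g c := cod_gOf (by decide +kernel)
theorem rel : ∀ w ∈ ML32.B.map (sh 3), ev g w ∈ Subgroup.center _ := (H0.all_take_done (H0.all_take_step (H0.all_take_zero _ (ML32.B.map (sh 3))) (C.rel_cen ιSL_inj cod (W := ((ML32.B.map (sh 3)).drop 0).take 24) (by decide +kernel))) (by decide +kernel))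
theorem card : Nat.card (Matrix.ProjectiveSpecialLinearGroup (Fin 3) (ZMod 2)) = 168 := by
  exact cardA (Cfsg.Agent.S0243.result (ZMod.card 2) 3 (by decide)) (by decide +kernel)
theorem iso : Nonempty (PG 8 ML32.B ≃* (Matrix.ProjectiveSpecialLinearGroup (Fin 3) (ZMod 2))) :=
  iso_q cod rel (ML32.simple (Pres.pg 8 ML32.B)) (ML32.card (Pres.pg 8 ML32.B)) card (by decide +kernel)
end H0.IL32
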