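import Cfsg.Agent.H0.Gl2
import Cfsg.Agent.H0.ML34.Main
import Cfsg.Agent.S0243
set_option maxRecDepth 100000
set_option Elab.async false
namespace H0.IL34
open Cfsg BN Matrix
noncomputable def C := (mcRC r4 3)

def c : List ℕ := [0x10105, 0x10501, 0x12101, 0x10109, 0x394d6, 0x16109, 0x1a109, 0x18937, 0x2ce31, 0x14c22, 0x4d06, 0x18109, 0x3430f, 0x1421b, 0x1c32e, 0x2432d, 0x3421d]
def ds : List (List ℕ) := [[1, 1, 1, 2, 3, 0, 0, 1, 2, 3, 2, 1, 1, 1, 1, 2, 3, 0, 0, 1, 2, 3, 2, 1], [3, 3, 0, 2, 3, 0], [5, 5, 5], [6, 4, 5, 4, 6, 4, 5, 5, 4], [7, 7, 7], [6, 4, 6, 6, 4, 6, 4, 6, 4], [9, 9, 9, 9], [7, 10, 8, 9, 7], [7, 10, 7, 9, 7], [10, 8, 10], [13, 13], [11, 12, 13, 12], [15, 15]]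
noncomputable def ι := ιSL (Fin 3) G4
theorem ex : ∀ x < 4, Ex ι C (c.getD x C.one) := ex_all (ex_SL C 2 (by decide)) (by decide +kernel)
noncomputable def g := gOf ι C c ds 4 ex
theorem cod : C.Cod ι g c := cod_gOf (by decide +kernel)
theorem rel : ∀ w ∈ ML34.B.map (sh 4), ev g w ∈ Subgroup.center _ := (H0.all_take_done (H0.all_take_step (H0.all_take_zero _ (ML34.B.map (sh 4))) (C.rel_cen ιSL_inj cod (W := ((ML34.B.map (sh 4)).drop 0).take 57) (by decide +kernel))) (by decide +kernel))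
theorem card : Nat.card (Matrix.ProjectiveSpecialLinearGroup (Fin 3) G4) = 20160 := by
  exact cardA (Cfsg.Agent.S0243.result c4 3 (by decide)) (by decide +kernel)
theorem iso : Nonempty (PG 13 ML34.B ≃* (Matrix.ProjectiveSpecialLinearGroup (Fin 3) G4)) :=
  iso_q cod rel (ML34.simple (Pres.pg 13 ML34.B)) (ML34.card (Pres.pg 13 ML34.B)) card (by decide +kernel)
end H0.IL34
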