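import Cfsg.Agent.H0.Gl2
import Cfsg.Agent.H0.ML37.Main
import Cfsg.Agent.S0243
set_option maxRecDepth 100000
set_option Elab.async false
namespace H0.IL37
open Cfsg BN Matrix
instance fp : Fact (Nat.Prime 7) := ⟨by decide⟩
noncomputable def C := (mcRC (H6.rcZ 7 3 (by decide)) 3)


def c : List ℕ := [0x1001009, 0x1009001, 0x10c1001, 0x601c8eb, 0x6766c86, 0x4a4ec5d, 0x301c003, 0x42060dd, 0x24060eb, 0x6c0100e, 0x4005136, 0x2003066, 0x6006101, 0x420512e, 0x220306e]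
def ds : List (List ℕ) := [[1, 1, 2, 0, 1, 0, 0, 0, 0, 2, 0, 1, 2, 1, 1, 2, 0, 1, 0, 0, 0, 0, 2, 0, 1, 2, 1, 1, 2, 0, 1, 0, 0, 0, 0, 2, 0, 1, 2, 1, 1, 2, 0, 1, 0, 0, 0, 0, 2, 0, 1, 2, 1, 1, 2, 0, 1, 0, 0, 0, 0, 2, 0, 1, 2, 1, 1, 2, 0, 1, 0, 0, 0, 0, 2, 0, 1, 2, 1, 1, 2, 0, 1, 0, 0, 0, 0, 2, 0, 1, 2], [0, 2, 1, 0, 0, 2, 0, 1, 1, 0, 2, 1, 0, 0, 2, 0, 1, 1, 0, 2, 1, 0, 0, 2, 0, 1, 1, 0, 2, 1, 0, 0, 2, 0, 1, 1], [4, 4, 4], [4, 3, 5, 5, 3, 5], [5, 5, 3, 4, 4, 3, 4, 3, 4], [7, 7, 7, 7, 7], [6, 8, 6, 7, 6], [8, 8, 6, 7, 6, 7, 7, 6, 8], [10, 10, 10, 10, 10], [9, 11, 9, 11, 9, 11], [9, 10, 10, 9, 11], [13, 13, 13, 13, 13]]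
noncomputable def ι := ιSL (Fin 3) (ZMod 7)
theorem hι : Function.Injective ι := ιSL_inj
theorem ex : ∀ x < 3, Ex ι C (c.getD x C.one) := ex_all (ex_SL C 7 (by decide)) (by decide +kernel)
noncomputable def g := gOf ι C c ds 3 ex
theorem cod : C.Cod ι g c := cod_gOf (by decide +kernel)
theorem rel : ∀ w ∈ ML37.B.map (sh 3), ev g w ∈ Subgroup.center _ := (H0.all_take_done (H0.all_take_step (H0.all_take_zero _ (ML37.B.map (sh 3))) (C.rel_cen hι cod (W := ((ML37.B.map (sh 3)).drop 0).take 67) (by decide +kernel))) (by decide +kernel))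
theorem card : Nat.card (Matrix.ProjectiveSpecialLinearGroup (Fin 3) (ZMod 7)) = 1876896 := by
  exact cardA (Cfsg.Agent.S0243.result (ZMod.card 7) 3 (by decide)) (by decide +kernel)
theorem iso : Nonempty (PG 12 ML37.B ≃* (Matrix.ProjectiveSpecialLinearGroup (Fin 3) (ZMod 7))) :=
  iso_q cod rel (ML37.simple (Pres.pg 12 ML37.B)) (ML37.card (Pres.pg 12 ML37.B)) card (by decide +kernel)
end H0.IL37
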