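import Cfsg.Agent.H0.Gl2
import Cfsg.Agent.H0.MO82.Main
import Cfsg.Agent.S0293
set_option maxRecDepth 100000
set_option Elab.async false
namespace H0.IO82
open Cfsg BN Matrix
noncomputable def C := ((mc2 (ZMod 2) 8 0x101010101010101 0x8040201008040201 (by decide +kernel) (by decide +kernel)).reix (finSumFinEquiv (m := 4) (n := 4)))
theorem hC : Rd (rc2 (ZMod 2)) (finSumFinEquiv (m := 4) (n := 4)) C := (rd_2 _)
def c : List ℕ := [0x55f0f5afdc61b3d5, 0xa5f5ed6876215f5a, 0x52ec5f55a50f69cd, 0x6fafcf6e76ebed90, 0xc341fc9461678081, 0x24348dc3bcec203, 0x8040126108754142, 0x6e082d6f7dc0615d, 0x9f9b09b340f9ab90, 0x8040a133aa048301, 0x84eab74b57ccce5a, 0x75eab7836ef50692, 0xea754a25086e5d34]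
def ds : List (List ℕ) := [[2, 1, 2, 2, 2, 1, 2, 2, 2, 1, 2, 2], [1, 2, 0, 0, 2, 0, 2, 1, 1, 2, 0, 0, 2, 0, 2, 1, 1, 2, 0, 0, 2, 0, 2, 1], [4, 4, 4, 4], [4, 3, 5, 3, 4, 3, 5], [5, 3, 5, 5, 3, 5, 3, 5, 3], [7, 7, 7, 7, 7, 7, 7, 7], [8, 8, 8, 8, 6, 7, 7, 7, 7], [6, 8, 8, 6, 8, 8, 6, 7, 7, 6, 8], [10, 10, 10, 10, 10], [11, 11, 11, 9, 11, 9, 11, 11]]
theorem hQ (v) : (quadFormPlus 4 (ZMod 2)) v = v ⬝ᵥ (C.val 0x80402010 *ᵥ v) := q_plus hC (by decide +kernel) v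
noncomputable def ι := (ιG (isometryGroup (ZMod 2) (quadFormPlus 4 (ZMod 2)))).comp (commutator _).subtype
theorem ex : ∀ x < 3, Ex ι C (c.getD x C.one) := (ex_step (ex_step (ex_step ex_nil (Ex.comm (ex_iso hC hQ 0x86944a10b0ba04b9 0x522c4a10dc02d0d5 (by decide +kernel)) (ex_iso hC hQ 0x50f5f075066f670f 0x50f5f075066f670f (by decide +kernel)) 0x522c4a10dc02d0d5 0x50f5f075066f670f (c := 0x55f0f5afdc61b3d5) (by decide +kernel)) (by decide +kernel)) (Ex.comm (ex_iso hC hQ 0xce384b03084a3424 0xce384b03084a3424 (by decide +kernel)) (ex_iso hC hQ 0xffd7ebdbe07b2196 0x4b1c5f6f9fcfea5d (by decide +kernel)) 0xce384b03084a3424 0x4b1c5f6f9fcfea5d (c := 0xa5f5ed6876215f5a) (by decide +kernel)) (by decide +kernel)) (Ex.comm (ex_iso hC hQ 0x1ce6555fe14b38d2 0x690f55c394d7a43b (by decide +kernel)) (ex_iso hC hQ 0x21a874a2d865883 0xa5c25f9252218024 (by decide +kernel)) 0x690f55c394d7a43b 0xa5c25f9252218024 (c :=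 0x52ec5f55a50f69cd) (by decide +kernel)) (by decide +kernel))
noncomputable def g := gOf ι C c ds 3 ex
theorem cod : C.Cod ι g c := cod_gOf (by decide +kernel)
theorem rel : ∀ w ∈ MO82.B.map (sh 3), ev g w ∈ Subgroup.center _ := (H0.all_take_done (H0.all_take_step (H0.all_take_step (H0.all_take_zero _ (MO82.B.map (sh 3))) (C.rel_cen (inj_comm ιG_inj) cod (W := ((MO82.B.map (sh 3)).drop 0).take 318) (by decide +kernel))) (C.rel_cen (inj_comm ιG_inj) cod (W := ((MO82.B.map (sh 3)).drop 318).take 22) (by decide +kernel))) (by decide +kernel))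
theorem card : Nat.card (POmega (ZMod 2) (quadFormPlus 4 (ZMod 2))) = 174182400 := by
  exact cardB (Cfsg.Agent.S0293.result (ZMod.card 2) 4 (by decide)) (by decide +kernel)
theorem iso : Nonempty (PG 10 MO82.B ≃* (POmega (ZMod 2) (quadFormPlus 4 (ZMod 2)))) :=
  iso_q cod rel (MO82.simple (Pres.pg 10 MO82.B)) (MO82.card (Pres.pg 10 MO82.B)) card (by decide +kernel)
end H0.IO82
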