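import Cfsg.Agent.H0.Gl2
import Cfsg.Agent.H0.ML28.Main
import Cfsg.Agent.S1069
import Cfsg.Agent.H0.MatF
set_option maxRecDepth 100000
set_option Elab.async false
namespace H0.IR3
open Cfsg BN Matrix

noncomputable def C := ((mcRC (H6.rcZ 3 2 (by decide)) 14).reix (finSumFinEquiv (m := 2) (n := 12) : Lie.chevG2.Idx ≃ Fin (2 + 12)))
theorem hC : Rd (H6.rcZ 3 2 (by decide)) (finSumFinEquiv (m := 2) (n := 12) : Lie.chevG2.Idx ≃ Fin (2 + 12)) C := (rd_rc _ _)

def c : List ℕ := [0x50080901018024051294001622450042185001801400040900001940000068000001800000060000001000040040001051, 0x40000009000000240000029000001640000601000040240042481005188940516845008024044602005000100045040001, 0x50080901018024051294001622450042185001801400040900001940000068000001800000060000001000040040001051, 0x600409440200284601949248421241011a81004010002008010888204201268080051120040208000054800006048006a8, 0x9020068a01408819986965a698664a02628a008060202402452992619aa842aa8a6219a02004880280249004058892555a, 0x80280281004098489a266411595aa8664928018048a0200608a8061452969665a26a892028098a0080a4902005899a451a,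 0x800000090000005800000690000025800005020000a0180082a5200a48a9402a699a06802404860240a85010004a540001, 0x9028060400408029866645419804988096180200945004090651599045864052664969502804460100949018048096244a, 0x401402090280986451244a9a294a92606852010064600802886022426960186156268590100185018064a0080088a260aa, 0x5014050602406015695444685640561898560000948020054a8885496415a811a8998a40040a4a024098a0140000a61014, 0x6014090a01805026699888a4a540651854a500005880200989888986a82a98129895458008094902405460280000692024]
def ds : List (List ℕ) := [[1, 0, 1, 1, 1, 0, 0, 1, 0, 0, 0, 0], [1, 1, 1, 0, 0, 1, 1, 0, 1, 1, 1, 0], [4, 4], [5, 3, 4], [3, 5, 3, 4, 3, 5], [7, 7, 7, 7, 7, 7], [8, 6], [9, 9, 9, 9, 9, 9]]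
theorem xq (r t : ℕ) (hr : r < Lie.chevG2.nroots) {a : ℕ}
    (h : ∀ x y, (H6.rcZ 3 2 (by decide)).add ((H6.rcZ 3 2 (by decide)).ent (2 + 12) a ((finSumFinEquiv (m := 2) (n := 12) : Lie.chevG2.Idx ≃ Fin (2 + 12)) x) ((finSumFinEquiv (m := 2) (n := 12) : Lie.chevG2.Idx ≃ Fin (2 + 12)) y)) 0 = (H6.rcZ 3 2 (by decide)).add (xE (H6.rcZ 3 2 (by decide)) 2 Lie.chevG2 ⟨r, hr⟩ t x y) 0) :
    Lie.chevG2.x (ZMod 3) r (t : ZMod 3) = C.val a := by
  rw [Lie.ChevalleyDatum.x, dif_pos hr]
  have := x_eq hC 2 (by decide +kernel) ⟨r, hr⟩ t h
  exact this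
theorem wm (l : List (ℕ × ℕ × ℕ)) (h : ∀ p ∈ l, Lie.chevG2.x (ZMod 3) p.1 (p.2.1 : ZMod 3) = C.val p.2.2) :
    Lie.chevG2.wordMat (ZMod 3) (l.map fun p => (p.1, (p.2.1 : ZMod 3))) = C.val (l.foldr (fun p a => C.mul p.2.2 a) C.one) := by
  induction l with
  | nil => exact C.h1.symm
  | cons p l ih =>
    rw [List.foldr_cons, C.hmul, ← ih fun q hq => h q (List.mem_cons_of_mem _ hq), ← h p List.mem_cons_self]
    rfl
def l0 : List (ℕ × ℕ × ℕ) := [(7, 1, 0x40000001010000051000001200000042005001000000040800001000000068000001800000040000001000000040001001), (6, 1, 0x50000001000000040000001400000040000001800400040000001800000040000001000000060000001000040040000001), (8, 1, 0x40080001000000048800001008090048000001001000040000001110000040000001200000040000001000000040000401), (9, 1, 0x40000801000010040020201020400040420001000000040000001040000041000001000000040000001000000040000201), (10, 0, 0x40000001000000040000001000000040000001000000040000001000000040000001000000040000001000000040000001), (11, 0, 0x40000001000000040000001000000040000001000000040000001000000040000001000000040000001000000040000001)]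
theorem h0 : ∀ p ∈ l0, Lie.chevG2.x (ZMod 3) p.1 (p.2.1 : ZMod 3) = C.val p.2.2 := by
  intro p hp
  simp only [l0, List.mem_cons, List.not_mem_nil, or_false] at hp
  rcases hp with rfl | rfl | rfl | rfl | rfl | rfl
  · exact xq 7 1 (by decide) (by decide +kernel)
  · exact xq 6 1 (by decide) (by decide +kernel)
  · exact xq 8 1 (by decide) (by decide +kernel)
  · exact xq 9 1 (by decide) (by decide +kernel)
  · exact xq 10 0 (by decide) (by decide +kernel)
  · exact xq 11 0 (by decide) (by decide +kernel)
theorem g0 : Ex (ιG (Lie.twistedG2 (ZMod 3) 1)) C 0x50080901018024051294001622450042185001801400040900001940000068000001800000060000001000040040001051 := ex_gen _ 0x6014090102002006599a801982a80046aaa00180a80004040000140000005a000001500000050000001000080840002891 (by decide +kernel) ⟨Lie.reeWordU 1 1 0 0, ⟨1, 0, 0, Or.inl rfl⟩, by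
  show C.val _ = _
  rw [show (Lie.reeWordU 1 1 0 0 : List (ℕ × ZMod 3)) = l0.map fun p => (p.1, (p.2.1 : ZMod 3)) by decide +kernel, wm l0 h0]
  exact C.veq (by decide +kernel)⟩
def l1 : List (ℕ × ℕ × ℕ) := [(4, 2, 0x40000001000000240000029000000040000201000000040000081005000840000045000004040000001000000040040001), (5, 2, 0x40000009000000040000001000000240000001000000240040001000000140000001000000040000005000100040000001), (3, 2, 0x40000001000000840000001000004440000001000040040000021000020040900221000000040002001000000040100001), (2, 2, 0x40000001000000040000041000001040000001000000040008101000108040008001024000040200001000000040800001), (1, 0, 0x40000001000000040000001000000040000001000000040000001000000040000001000000040000001000000040000001), (0, 0, 0x40000001000000040000001000000040000001000000040000001000000040000001000000040000001000000040000001)]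
theorem h1 : ∀ p ∈ l1, Lie.chevG2.x (ZMod 3) p.1 (p.2.1 : ZMod 3) = C.val p.2.2 := by
  intro p hp
  simp only [l1, List.mem_cons, List.not_mem_nil, or_false] at hp
  rcases hp with rfl | rfl | rfl | rfl | rfl | rfl
  · exact xq 4 2 (by decide) (by decide +kernel)
  · exact xq 5 2 (by decide) (by decide +kernel)
  · exact xq 3 2 (by decide) (by decide +kernel)
  · exact xq 2 2 (by decide) (by decide +kernel)
  · exact xq 1 0 (by decide) (by decide +kernel)
  · exact xq 0 0 (by decide) (by decide +kernel)
theorem g1 : Ex (ιG (Lie.twistedG2 (ZMod 3) 1)) C 0x40000009000000240000029000001640000601000040240042481005188940516845008024044602005000100045040001 := ex_gen _ 0x400000050000005400000a50000001400001010000a024008aa9100aa826408a6659088008040601409020200046280001 (by decide +kernel) ⟨Lie.reeWordV 1 1 0 0, ⟨1, 0, 0, Or.inr rfl⟩, by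
  show C.val _ = _
  rw [show (Lie.reeWordV 1 1 0 0 : List (ℕ × ZMod 3)) = l1.map fun p => (p.1, (p.2.1 : ZMod 3)) by decide +kernel, wm l1 h1]
  exact C.veq (by decide +kernel)⟩
noncomputable def ι := ιG (Lie.twistedG2 (ZMod 3) 1)
theorem hι : Function.Injective ι := ιG_inj
theorem ex : ∀ x < 3, Ex ι C (c.getD x C.one) := (ex_step (ex_step (ex_step ex_nil g0 (by decide +kernel)) g1 (by decide +kernel)) g0 (by decide +kernel))
noncomputable def g := gOf ι C c ds 3 ex
theorem cod : C.Cod ι g c := cod_gOf (by decide +kernel)
theorem rel : ∀ w ∈ ML28.B.map (sh 3), ev g w = 1 := (H0.all_take_done (H0.all_take_step (H0.all_take_step (H0.all_take_zero _ (ML28.B.map (sh 3))) (C.rel_one hι cod (W := ((ML28.B.map (sh 3)).drop 0).take 19) (by decide +kernel))) (C.rel_one hι cod (W := ((ML28.B.map (sh 3)).drop 19).take 5) (by decide +kernel))) (by decide +kernel))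
open Subgroup in
theorem iso3 {Γ A : Type*} [Group Γ] [Group A] (φ : A →* Γ) (hφ : Function.Injective φ) (hs : IsSimpleGroup A)
    (hp : commutator A = ⊤) (hA : Nat.card A = 504) (hΓ : Nat.card Γ = 1512) : Nonempty (A ≃* commutator Γ) := by
  have e := MonoidHom.ofInjective hφ
  have h1 : Nat.card φ.range = 504 := (Nat.card_congr e.toEquiv).symm.trans hA
  have h2 : φ.range.index = 3 := by
    have := φ.range.card_mul_index
    rw [h1, hΓ] at this
    omega
  have : Finite (Γ ⧸ φ.range) := Nat.finite_of_card_ne_zero (h2.trans_ne (by decide))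
  have h3 : φ.range.normalCore.index ∣ 6 := by
    rw [normalCore_eq_ker, index_ker]
    refine (card_subgroup_dvd_card _).trans ?_
    rw [Nat.card_perm, ← index_eq_card, h2]; decide
  have h4 : φ.range.normalCore = φ.range := by
    rcases hs.eq_bot_or_eq_top_of_normal (φ.range.normalCore.comap φ) inferInstance with h | h
    · have h5 : φ.range.normalCore = ⊥ := by
        rw [eq_bot_iff]; intro x hx
        obtain ⟨y, rfl⟩ := normalCore_le _ hx
        have : y ∈ (⊥ : Subgroup A) := h ▸ hx
        rw [mem_bot.1 this, map_one]; exact one_mem _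
      rw [h5, index_bot, hΓ] at h3
      exact absurd h3 (by decide)
    · refine le_antisymm (normalCore_le _) ?_
      rintro _ ⟨y, rfl⟩
      exact (h ▸ mem_top y : y ∈ φ.range.normalCore.comap φ)
  have : φ.range.Normal := h4 ▸ inferInstance
  have h6 : φ.range = commutator Γ := by
    refine le_antisymm ?_ ?_
    · rw [MonoidHom.range_eq_map, ← hp, _root_.commutator_def, map_commutator]
      exact commutator_mono le_top le_top
    · have : Fact (Nat.Prime 3) := ⟨Nat.prime_three⟩
      have : IsCyclic (Γ ⧸ φ.range) := isCyclic_of_prime_card (p := 3) h2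
      exact Normal.quotient_commutative_iff_commutator_le.1 inferInstance
  exact ⟨e.trans (MulEquiv.subgroupCongr h6)⟩
theorem iso : Nonempty (PG 8 ML28.B ≃* commutator (Lie.twistedG2 (ZMod 3) 1)) :=
  haveI := ML28.simple (Pres.pg 8 ML28.B)
  iso3 _ (pgHom_inj (f := fun x => g (3 + x)) (h := rels_sh rel) (hB := by decide +kernel) this (x := 0) (by decide)
    (by simpa using C.ne_of cod (u := [3]) (v := []) (by decide +kernel))) this
    (perfect_of_simple (by rw [ML28.card (Pres.pg 8 ML28.B)]; exact Nat.not_prime_of_dvd_of_lt (m := 2) (by decide) le_rfl (by decide))) (ML28.card (Pres.pg 8 ML28.B))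
    ((Cfsg.Agent.S1069.result (K := ZMod 3) (m := 0) (ZMod.card 3)).trans (by decide +kernel))
end H0.IR3
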