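import Cfsg.Agent.H0.Gl2
import Cfsg.Agent.H0.MS62.Main
import Cfsg.Agent.S0245
set_option maxRecDepth 100000
set_option Elab.async false
namespace H0.IS62
open Cfsg BN Matrix
noncomputable def C := ((mc2 (ZMod 2) 6 0x41041041 0x810204081 (by decide +kernel) (by decide +kernel)).reix (finSumFinEquiv (m := 3) (n := 3)))
theorem hC : Rd (rc2 (ZMod 2)) (finSumFinEquiv (m := 3) (n := 3)) C := (rd_2 _)
def c : List ℕ := [0x8104446d8, 0x822236c01, 0x150b61081, 0x810224081, 0x996204081, 0x8132c4081, 0xb5014408c, 0xdc77c4541, 0x81086d0a8, 0xa85084214, 0xfe1323603, 0x16cba6515, 0x8517c40c1, 0x4966eea5e, 0xaaf4703f9, 0x996204089, 0x20c52bd9a, 0x4f883066e, 0xbdf1c408e, 0x511bf0dc1, 0x5516f1d81, 0xf505447dc, 0x18c218e3b, 0x82a23ee3b]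
def ds : List (List ℕ) := [[5, 0, 3, 3, 4, 2, 3, 8, 5, 5, 0, 5, 0, 3, 3, 4, 2, 3, 8, 5, 5, 0, 5, 0, 3, 3, 4, 2, 3, 8, 5, 5, 0], [3, 0, 8, 1, 5, 4, 5, 3, 0, 5, 2, 3], [10, 10, 10, 10, 10, 10], [11, 9, 11, 9, 10, 10], [9, 11, 11, 11, 9, 11, 11, 9], [13, 13, 13, 13, 13, 13, 13, 13, 13, 13, 13], [14, 12, 13, 12, 14, 12, 13], [14, 14, 12, 14, 14, 12, 14], [16, 16, 16, 16, 16], [15, 16, 16, 16, 15], [17, 15, 16, 15, 17], [19, 19, 19], [19, 18, 20], [18, 19, 18, 20, 20, 18, 20, 18], [21, 22, 21, 22, 21]]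
noncomputable def ι := ιSp 3 (ZMod 2)
theorem ex : ∀ x < 9, Ex ι C (c.getD x C.one) := ex_all (ex_Sp hC 1 0x102060408 (by decide +kernel) (by decide +kernel)) (by decide +kernel)
noncomputable def g := gOf ι C c ds 9 ex
theorem cod : C.Cod ι g c := cod_gOf (by decide +kernel)
theorem rel : ∀ w ∈ MS62.B.map (sh 9), ev g w = 1 := (H0.all_take_done (H0.all_take_step (H0.all_take_zero _ (MS62.B.map (sh 9))) (C.rel_one ιSp_inj cod (W := ((MS62.B.map (sh 9)).drop 0).take 78) (by decide +kernel))) (by decide +kernel))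
theorem card : Nat.card (Matrix.symplecticGroup (Fin 3) (ZMod 2)) = 1451520 := by
  exact (Cfsg.Agent.S0245.result (ZMod.card 2) 3).trans (by decide +kernel)
theorem iso : Nonempty (PG 15 MS62.B ≃* (Matrix.symplecticGroup (Fin 3) (ZMod 2))) :=
  iso_s cod rel (MS62.simple (Pres.pg 15 MS62.B)) (MS62.card (Pres.pg 15 MS62.B)) card (by decide +kernel)
theorem isoP : Nonempty (PG 15 MS62.B ≃* PSp 3 (ZMod 2)) :=
  haveI := MS62.simple (Pres.pg 15 MS62.B)
  iso_cen this (perfect_of_simple (by rw [MS62.card (Pres.pg 15 MS62.B)]; exact Nat.not_prime_of_dvd_of_lt (m := 2) (by decide) le_rfl (by decide))) iso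
end H0.IS62
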