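import Cfsg.Agent.H0.Fld2
import Cfsg.Agent.H0.MSz8.Main
import Cfsg.Agent.S1163
set_option maxRecDepth 100000
set_option Elab.async false
namespace H0.ISz8
open Cfsg BN Matrix

noncomputable def C := (mcRC r8 4)


def c : List ℕ := [0x200240248209, 0x200640dc8719, 0x1008040200, 0x336acee9c3e9, 0x200440f88a11, 0x200440188bd1, 0x200440188bd1, 0x200440f88a11, 0x600f002f828e, 0xc003c04e027b, 0x4000c0030005, 0xa00180018002]
def ds : List (List ℕ) := [[1, 2, 0, 0, 0, 0, 0, 2, 1, 2, 0, 0, 0, 0, 0, 2], [0, 1, 1, 2, 2, 1, 0, 2, 2, 0], [4, 4, 4], [5], [6, 6, 6], [3, 5, 5, 3, 5, 3, 4, 4, 3, 4, 4, 3, 4, 3], [8, 8, 8, 8, 8, 8], [7, 9, 7, 9, 6], [10, 10, 10, 10, 10, 10]]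
noncomputable def ι := ιG (Lie.Sz G8 4)
theorem hι : Function.Injective ι := ιG_inj
theorem ex : ∀ x < 3, Ex ι C (c.getD x C.one) := (ex_step (ex_step (ex_step ex_nil (ex_Sz 0x200240248209 0x200240048249 (by decide +kernel)) (by decide +kernel)) (ex_Sz 0x200640dc8719 0x2006409c8799 (by decide +kernel)) (by decide +kernel)) (ex_Sz 0x1008040200 0x1008040200 (by decide +kernel)) (by decide +kernel))
noncomputable def g := gOf ι C c ds 3 ex
theorem cod : C.Cod ι g c := cod_gOf (by decide +kernel)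
theorem rel : ∀ w ∈ MSz8.B.map (sh 3), ev g w = 1 := (H0.all_take_done (H0.all_take_step (H0.all_take_zero _ (MSz8.B.map (sh 3))) (C.rel_one hι cod (W := ((MSz8.B.map (sh 3)).drop 0).take 36) (by decide +kernel))) (by decide +kernel))
theorem card : Nat.card (Lie.Sz G8 4) = 29120 := by
  exact (Cfsg.Agent.S1163.result (m := 1) le_rfl c8').1
theorem iso : Nonempty (PG 9 MSz8.B ≃* (Lie.Sz G8 4)) :=
  iso_s cod rel (MSz8.simple (Pres.pg 9 MSz8.B)) (MSz8.card (Pres.pg 9 MSz8.B)) card (by decide +kernel)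
end H0.ISz8
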