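import Cfsg.Agent.H0.Gl2
import Cfsg.Agent.H0.MS43.Main
import Cfsg.Agent.S0280
set_option maxRecDepth 100000
set_option Elab.async false
namespace H0.IU42
open Cfsg BN Matrix

noncomputable def C := (mcRC r4 4)
theorem hC : Rd r4 (Equiv.refl _) C := rd_refl

def c : List ℕ := [0x25cf6164, 0x40030420, 0x3a8fe1e4, 0x2ec9b3d8, 0x29c7d368, 0x1949f358, 0xe194174e, 0xb1d4164b, 0xe48d1d73, 0xb1c66816, 0x7803b454, 0x4d89c520, 0x801f373d, 0xc01a2629, 0x80172635, 0xc01e152d, 0xc01e152d, 0x80172635]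
def ds : List (List ℕ) := [[0, 2, 3, 2, 0], [2, 0, 4, 3, 0, 2, 3, 1, 0, 3, 2, 0, 4, 2], [6, 6, 6, 6], [7, 5, 7, 7, 5, 7], [8, 8, 8, 8, 8], [7, 7, 5, 6, 6, 5, 7, 7], [10, 10, 10, 10, 10], [8, 11, 8, 11], [12, 12], [9, 10, 9, 9, 10], [14, 14], [15], [16, 16]]
noncomputable def ι := ιSU 4 G4 2
theorem hι : Function.Injective ι := ιSU_inj
theorem ex : ∀ x < 5, Ex ι C (c.getD x C.one) := ex_all (ex_SU hC 2 1 (by decide) (by decide)) (by decide +kernel)
noncomputable def g := gOf ι C c ds 5 ex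
theorem cod : C.Cod ι g c := cod_gOf (by decide +kernel)
theorem rel : ∀ w ∈ MS43.B.map (sh 5), ev g w ∈ Subgroup.center _ := (H0.all_take_done (H0.all_take_step (H0.all_take_zero _ (MS43.B.map (sh 5))) (C.rel_cen hι cod (W := ((MS43.B.map (sh 5)).drop 0).take 55) (by decide +kernel))) (by decide +kernel))
theorem card : Nat.card (PSU 4 G4 2) = 25920 := by
  exact cardA (Cfsg.Agent.S0280.result (q := 2) c4 4 (by decide)) (by decide +kernel)
theorem iso : Nonempty (PG 13 MS43.B ≃* (PSU 4 G4 2)) :=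
  iso_q cod rel (MS43.simple (Pres.pg 13 MS43.B)) (MS43.card (Pres.pg 13 MS43.B)) card (by decide +kernel)
end H0.IU42
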