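import Cfsg.Agent.H6.CoSub

/-! Small facts on the basis of the Leech lattice. -/

namespace H0
open H6 Cfsg
set_option maxRecDepth 100000
noncomputable abbrev bb (j : ℕ) : LL := bv (pt j)
theorem bb_dot {i j : ℕ} {z : ℤ} (h : (Nat.blt i 24 && Nat.blt j 24 && dEq (row bT i) (row bT j) z) = true) : dotInt (bb i : Vec) (bb j : Vec) = z := by
  simp only [Bool.and_eq_true, Nat.blt_eq] at h
  exact dot_of h.2 (congrArg (fun k => vz (row bT k)) (idx_pt h.1.1)) (congrArg (fun k => vz (row bT k)) (idx_pt h.1.2))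
theorem bb_sq {i : ℕ} (hi : i < 24) (h : i ≠ 1) : sqNorm (bb i : Vec) = 32 :=
  (dot_self _).symm.trans (bb_dot ((by decide +kernel : ∀ i < 24, i ≠ 1 → (Nat.blt i 24 && Nat.blt i 24 && dEq (row bT i) (row bT i) 32) = true) i hi h))
theorem bb_add {i j : ℕ} {z : ℤ} (h : (Nat.blt i 24 && Nat.blt j 24 && dEq (row bT i) (row bT j) z) = true) (hi : i ≠ 1) (hj : j ≠ 1) :
    sqNorm ((bb i + bb j : LL) : Vec) = 64 + 2 * z := by
  have h' := h
  simp only [Bool.and_eq_true, Nat.blt_eq] at h'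
  rw [AddSubgroup.coe_add, sq_add, bb_sq h'.1.1 hi, bb_sq h'.1.2 hj, bb_dot h]; rfl
theorem short_rep (x : LL) : ∃ y z : LL, x = y + (z + z) ∧ (y = 0 ∨ sqNorm (y : Vec) = 32 ∨ sqNorm (y : Vec) = 48 ∨ sqNorm (y : Vec) = 64) := by
  obtain ⟨y, h1, h2⟩ := kap_main.1 x
  obtain ⟨z, hz⟩ := kap_eq.1 h2
  refine ⟨y, z, by rw [← hz]; abel, or_iff_not_imp_left.2 fun h => ?_⟩
  have := sq_min y.2 fun e => h (Subtype.ext e)
  have := sq_dvd y.2
  omega
theorem trans_64' {v w : LL} (hv : sqNorm (v : Vec) = 64) (hw : sqNorm (w : Vec) = 64) : ∃ (g : Co0) (z : LL), w = g • v + (z + z) := by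
  obtain ⟨g, h⟩ := trans_64 card_Co0 hv hw
  obtain ⟨z, hz⟩ := kap_eq.1 h.symm
  exact ⟨g, z, by rw [← hz]; abel⟩
end H0
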