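import Cfsg.Agent.H0.MatQ

/-! Lane-parallel products of packed matrices over `ZMod p` with Barrett reduction. -/

namespace H0
open BN H6 Matrix Finset

noncomputable def mulB (p n w s m o oc r a b : ℕ) : ℕ :=
  force (sumLt n fun k => Nat.mul (Nat.land (Nat.shiftRight a (Nat.mul w k)) oc) (Nat.land (lane (Nat.mul w n) b k) r)) fun x =>
    Nat.sub x (Nat.mul p (Nat.land (Nat.shiftRight (Nat.mul m x) s) o))
theorem mulB_spec {p n w v s m : ℕ} (hv : v ≤ w) (hs : s ≤ w) (hp : 0 < p) (hp2 : p ≤ 2 ^ v) (hm0 : 0 < m)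
    (hb : m * (n * (2 ^ v * 2 ^ v)) < 2 ^ w) (hm : ∀ x ≤ n * (2 ^ v * 2 ^ v), m * x / 2 ^ s = x / p) (a b : ℕ) {i j : ℕ} (hi : i < n) (hj : j < n) :
    eP n w v (mulB p n w s m ((2 ^ (w - s) - 1) * pack w (n * n) fun _ => 1) ((2 ^ v - 1) * pack (w * n) n fun _ => 1) ((2 ^ v - 1) * pack w n fun _ => 1) a b) i j =
      (∑ k ∈ range n, eP n w v a i k * eP n w v b k j) % p := by
  have he : ∀ a i j, eP n w v a i j < 2 ^ v := fun _ _ _ => Nat.mod_lt _ (Nat.two_pow_pos v)
  have hS : ∀ i j, ∑ k ∈ range n, eP n w v a i k * eP n w v b k j ≤ n * (2 ^ v * 2 ^ v) := fun i j =>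
    (sum_le_card_nsmul _ _ (2 ^ v * 2 ^ v) fun k _ => Nat.mul_le_mul (he a i k).le (he b k j).le).trans (by simp)
  have hS' : ∀ x ≤ n * (2 ^ v * 2 ^ v), m * x < 2 ^ w := fun x hx => (Nat.mul_le_mul_left m hx).trans_lt hb
  have hS2 : ∀ x ≤ n * (2 ^ v * 2 ^ v), x < 2 ^ w := fun x hx => (Nat.le_mul_of_pos_left x hm0).trans_lt (hS' x hx)
  rw [mulB, force_eq]
  generalize hx : sumLt n _ = x
  have ex : x = pack (w * n) n fun i => pack w n fun j => ∑ k ∈ range n, eP n w v a i k * eP n w v b k j := by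
    rw [← hx, sumLt_eq]
    simp only [pack, sum_mul]
    rw [sum_congr rfl fun _ _ => sum_comm, sum_comm]
    refine sum_congr rfl fun k hk => ?_
    have hk := mem_range.1 hk
    refine (congrArg₂ (· * ·) (shand (w := w * n) (s := w * k) (k := v) (by nlinarith) a) (shand (w := w) (s := 0) (k := v) (by omega) (lane (w * n) b k))).trans ?_
    simp only [pack, sum_mul_sum]
    refine sum_congr rfl fun i _ => sum_congr rfl fun j hj => ?_
    rw [lane_lane b k (mem_range.1 hj), show lane (w * n) a i / 2 ^ (w * k) % 2 ^ v = eP n w v a i k from ?_, pow_zero, Nat.div_one]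
    · show _ * _ * (eP n w v b k j * _) = _; ring
    · show _ = lane w a (n * i + k) % 2 ^ v
      rw [← lane_lane a i hk, ← Nat.shiftRight_eq_div_pow]; exact (Nat.mod_mod_of_dvd _ (pow_dvd_pow 2 hv)).symm
  have lx : ∀ i < n, ∀ j < n, lane w x (n * i + j) = ∑ k ∈ range n, eP n w v a i k * eP n w v b k j := fun i hi j hj => by
    have b : ∀ i, ∀ j < n, ∑ k ∈ range n, eP n w v a i k * eP n w v b k j < 2 ^ w := fun i j _ => hS2 _ (hS i j)
    rw [← lane_lane _ i hj, ex, lane_pack (fun _ _ => pack_lt' (b _)) hi, lane_pack (b _) hj]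
  have bx : ∀ t < n * n, lane w x t ≤ n * (2 ^ v * 2 ^ v) := fun t ht => by
    rw [← Nat.div_add_mod t n, lx _ (Nat.div_lt_of_lt_mul ht) _ (Nat.mod_lt _ (by omega))]; exact hS ..
  have ez : x = pack w (n * n) (lane w x) := eq_pack _ (by
    rw [ex, ← mul_assoc]; exact pack_lt' fun _ _ => pack_lt' fun _ _ => hS2 _ (hS ..))
  generalize lane w x = f at lx bx ez
  subst ez
  have e1 : m * pack w (n * n) f = pack w (n * n) fun t => m * f t := by simp [pack, mul_sum, mul_assoc]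
  have e2 := shand (w := w) (n := n * n) (s := s) (k := w - s) (by omega) (pack w (n * n) fun t => m * f t)
  have ht : n * i + j < n * n := by nlinarith
  show lane w (_ - p * ((m * _) >>> s &&& _)) (n * i + j) % 2 ^ v = _
  rw [e1, e2]
  have e3 : pack w (n * n) f - p * pack w (n * n) (fun t => lane w (pack w (n * n) fun t => m * f t) t / 2 ^ s % 2 ^ (w - s)) =
      pack w (n * n) fun t => f t + 0 - p * (f t / p) := by
    rw [← pack_as (f := f) (g := fun _ => 0) fun t h => Nat.mul_div_le (f t) p]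
    refine congrArg₂ (· - ·) (by simp [pack]) ?_
    rw [pack, mul_sum]
    refine sum_congr rfl fun t h => ?_
    have h := mem_range.1 h
    rw [lane_pack (fun t h => hS' _ (bx t h)) h, ← mul_assoc, Nat.mod_eq_of_lt, hm _ (bx t h)]
    rw [Nat.div_lt_iff_lt_mul (Nat.two_pow_pos s), ← pow_add, Nat.sub_add_cancel hs]; exact hS' _ (bx t h)
  rw [e3, lane_pack (f := fun t => f t + 0 - p * (f t / p)) (fun t h => (Nat.sub_le ..).trans_lt (hS2 _ (bx t h))) ht, add_zero, ← Nat.mod_eq_sub_mul_div, lx i hi j hj]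
  exact Nat.mod_eq_of_lt ((Nat.mod_lt _ hp).trans_le hp2)
noncomputable def mcB (p n w v s m o oc r u : ℕ) (h : okP p n w v r u = true)
    (h1 : v ≤ w ∧ s ≤ w ∧ 0 < p ∧ p ≤ 2 ^ v ∧ 0 < m ∧ m * (n * (2 ^ v * 2 ^ v)) < 2 ^ w)
    (hm : ∀ x ≤ n * (2 ^ v * 2 ^ v), m * x / 2 ^ s = x / p)
    (h2 : o = (2 ^ (w - s) - 1) * pack w (n * n) (fun _ => 1) ∧ oc = (2 ^ v - 1) * pack (w * n) n (fun _ => 1) ∧ r = (2 ^ v - 1) * pack w n fun _ => 1) :
    MC (Matrix (Fin n) (Fin n) (ZMod p)) :=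
  { mcP p n w v r u h with
    mul := mulB p n w s m o oc r
    hmul := fun a b => by
      obtain ⟨rfl, rfl, rfl⟩ := h2
      obtain ⟨a1, a2, a3, a4, a5, a6⟩ := h1
      ext i j
      simp only [mcP, of_apply, mul_apply, mulB_spec a1 a2 a3 a4 a5 a6 hm a b i.2 j.2, ZMod.natCast_mod, Nat.cast_sum, Nat.cast_mul]
      exact (Fin.sum_univ_eq_sum_range (fun k => (eP n w v a i k : ZMod p) * eP n w v b k j) n).symm }
end H0
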