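import Cfsg.Agent.H0.Cover
namespace H0
open Cfsg Subgroup
open scoped commutatorElement
universe u

theorem card_ker_mul_up {Γ S : Type*} [Group Γ] [Group S] {σ : Γ →* S} (h : Function.Surjective σ) :
    Nat.card σ.ker * Nat.card S = Nat.card Γ := by
  rw [← σ.ker.card_mul_index, index_ker, MonoidHom.range_eq_top.2 h, card_top]

theorem stem_comp_up {Γ S Q : Type*} [Group Γ] [Group S] [Group Q] {σ : Γ →* S} {π : S →* Q}
    (hσ : IsStemExtension σ) (hπ : IsStemExtension π) (hQ : commutator Q = ⊤) : IsStemExtension (π.comp σ) := by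
  have hΓ : commutator Γ = ⊤ := stem_perfect hσ (stem_perfect hπ hQ)
  refine ⟨hπ.1.comp hσ.1, ?_, hΓ ▸ le_top⟩
  have h1 : ⁅(π.comp σ).ker, (⊤ : Subgroup Γ)⁆ ≤ center Γ := by
    refine (commutator_le.2 fun x hx y _ => ?_).trans hσ.2.1
    rw [MonoidHom.mem_ker, map_commutatorElement, commutatorElement_eq_one_iff_mul_comm]
    exact (mem_center_iff.1 (hπ.2.1 hx) (σ y)).symm
  have h2 : ⁅⁅(π.comp σ).ker, (⊤ : Subgroup Γ)⁆, (⊤ : Subgroup Γ)⁆ = ⊥ := by
    rw [commutator_eq_bot_iff_le_centralizer]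
    exact h1.trans (center_le_centralizer _)
  have h3 : ⁅⁅(⊤ : Subgroup Γ), (⊤ : Subgroup Γ)⁆, (π.comp σ).ker⁆ = ⊥ :=
    commutator_commutator_eq_bot_of_rotate (by rw [Subgroup.commutator_comm ⊤]; exact h2) h2
  rw [← _root_.commutator_def, hΓ, Subgroup.commutator_comm, commutator_eq_bot_iff_le_centralizer] at h3
  intro x hx
  exact mem_center_iff.2 fun y => h3 hx y (mem_top y)

theorem hasCyc_lift {S Q : Type u} [Group S] [Group Q] [Finite S] {π : S →* Q} (hπ : IsStemExtension π)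
    (hQ : commutator Q = ⊤) {a p : ℕ} (hp : p.Prime) (ha : Nat.card π.ker = a) (hc : p.Coprime a)
    (ex : StemElt Q p)
    (bound : ∀ (Γ : Type u) [Group Γ] [Finite Γ] (σ : Γ →* Q), IsStemExtension σ → Nat.card σ.ker ∣ a * p) :
    HasCyclicSchurMultiplier S p := by
  have hS := stem_perfect hπ hQ
  have : Finite Q := Finite.of_surjective π hπ.1
  refine hasCyc_of hS hp.ne_zero ?_ fun Γ _ _ σ hσ => ?_
  · obtain ⟨Δ, _, _, τ, hτ, h1⟩ := ex
    have : Fact p.Prime := ⟨hp⟩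
    obtain ⟨z, hz⟩ := exists_prime_orderOf_dvd_card' p (h1.trans Group.exponent_dvd_nat_card)
    let F : Subgroup (S × Δ) := (π.comp (MonoidHom.fst _ _)).eqLocus (τ.comp (MonoidHom.snd _ _))
    have hF : ∀ x : S × Δ, x ∈ F ↔ π x.1 = τ x.2 := fun _ => Iff.rfl
    have hD : ⁅F, F⁆ ≤ F := comm_self_le F
    have e1 : F.map (MonoidHom.fst _ _) = ⊤ := by
      rw [eq_top_iff]; intro a _
      obtain ⟨b, hb⟩ := hτ.1 (π a)
      exact ⟨(a, b), hb.symm, rfl⟩
    have e2 : F.map (MonoidHom.snd _ _) = ⊤ := by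
      rw [eq_top_iff]; intro b _
      obtain ⟨a, ha⟩ := hπ.1 (τ b)
      exact ⟨(a, b), ha, rfl⟩
    have d2 : ⁅F, F⁆.map (MonoidHom.snd _ _) = ⊤ := by
      rw [map_commutator, e2, ← _root_.commutator_def, stem_perfect hτ hQ]
    refine ⟨(⁅F, F⁆ :), inferInstance, inferInstance, (MonoidHom.fst _ _).comp ⁅F, F⁆.subtype,
      stem_derived hS F _ e1 fun x hx h3 => ?_, ?_⟩
    · have h3' : x.1 = 1 := h3
      have h4 : τ x.2 = 1 := by rw [← (hF x).1 hx, h3', map_one]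
      exact mem_center_iff.2 fun y => Prod.ext (by simp [h3']) (mem_center_iff.1 (hτ.2.1 h4) y.2)
    · obtain ⟨x, hx, h5⟩ : z.1 ∈ ⁅F, F⁆.map (MonoidHom.snd _ _) := d2 ▸ mem_top _
      have h5' : x.2 = z.1 := h5
      have h6 : x.1 ∈ π.ker := ((hF x).1 (hD hx)).trans (h5' ▸ z.2)
      have h7 : x.1 ^ a = 1 := by
        have := pow_card_eq_one' (x := (⟨x.1, h6⟩ : π.ker))
        rw [ha] at this
        exact congrArg Subtype.val this
      have h8 := Monoid.pow_exponent_eq_one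
        (⟨⟨x, hx⟩ ^ a, h7⟩ : ((MonoidHom.fst S Δ).comp ⁅F, F⁆.subtype).ker)
      generalize Monoid.exponent ((MonoidHom.fst S Δ).comp ⁅F, F⁆.subtype).ker = e at h8 ⊢
      have h9 : (x.2 ^ a) ^ e = 1 := congrArg (fun t => t.1.1.2) h8
      rw [h5', ← pow_mul] at h9
      have h10 : z ^ (a * e) = 1 := Subtype.ext h9
      rw [← orderOf_dvd_iff_pow_eq_one, hz] at h10
      exact hc.dvd_of_dvd_mul_left h10
  · have h1 := bound Γ _ (stem_comp_up hσ hπ hQ)
    have h2 := card_ker_mul_up (stem_comp_up hσ hπ hQ).1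
    rw [← card_ker_mul_up hσ.1, ← card_ker_mul_up hπ.1, ha, ← mul_assoc] at h2
    rw [Nat.eq_of_mul_eq_mul_right Nat.card_pos h2, mul_comm a] at h1
    exact Nat.dvd_of_mul_dvd_mul_right (ha ▸ Nat.card_pos) h1
end H0
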