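import Cfsg.Agent.H0.Cover

/-! Wrappers that keep instance unification cheap for subgroups of concrete matrix groups. -/

namespace H0
open Cfsg
universe u v

theorem hasMult_sub {A : Type u} {Γ : Type v} [Group A] [Group Γ] (H : Subgroup Γ) (e : Nonempty (A ≃* H))
    {M : Type*} [CommGroup M] (h : HasSchurMultiplier A M) : HasSchurMultiplier H M :=
  e.elim fun e => hasMult_equiv e h

theorem simple_sub {A : Type u} {Γ : Type v} [Group A] [Group Γ] (H : Subgroup Γ) (e : Nonempty (A ≃* H))
    (h : IsSimpleGroup A) {n : ℕ} (hc : Nat.card A = n) (hn : ¬ n.Prime) :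
    IsSimpleGroup H ∧ ¬ IsMulCommutative H ∧ Nat.card H = n := by
  obtain ⟨e⟩ := e
  have hc' := (Nat.card_congr e.toEquiv).symm.trans hc
  have := e.symm.isSimpleGroup
  refine ⟨this, fun hm => ?_, hc'⟩
  letI : CommGroup H := ⟨hm.1.1⟩
  exact hn (hc' ▸ IsSimpleGroup.prime_card (α := H))

end H0
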