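import Cfsg.Agent.H0.MSuz.Main
import Cfsg.Agent.H0.TCSuz5.Main
import Cfsg.Agent.H0.TCSuz4.Main
import Cfsg.Agent.H0.TCSuz3.Main
import Cfsg.Agent.H0.TCSuz7.Main
import Cfsg.Agent.H0.TCSuz6.Main
set_option maxRecDepth 100000
namespace H0.XSuzU
open H0 BN H0.MSuz
def subs : List (List ℕ) := [[0], [1], [2], [3], [5], [6]]
variable {G : Type*} [Group G] (P : Pres G 7 B)
include P
theorem gsubs : gen (m P).g subs = gen P.g subs := gen_extG defs P.g 7 (by decide +kernel)
theorem index : (gen (m P).g subs).index = 22880 ∧ Nat.card (gen (m P).g subs) = 19595520 :=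
  index_of_bounds (card P) (top P ▸ chain_index (σ := lets 7) H0.TCSuz5.main rfl rfl (rels_of_consChk (grel P) 7 inv (by decide +kernel)))
    ((chain_step (σ := [[0], [1], [2], [3], [5], [6]]) (n := 162) H0.TCSuz6.main rfl rfl (rels_of_consChk (grel P) 7 inv (by decide +kernel)) (chain_step (σ := [[0], [1], [2], [3], [5]]) (n := 56) H0.TCSuz7.main rfl rfl (rels_of_consChk (grel P) 7 inv (by decide +kernel)) (chain_step (σ := [[0], [1], [2], [3]]) (n := 135) H0.TCSuz3.main rfl rfl (rels_of_consChk (grel P) 7 inv (by decide +kernel)) (chain_step (σ := [[0], [2], [3]]) (n := 16) H0.TCSuz4.main rfl rfl (rels_of_consChk (grel P) 7 inv (by decide +kernel)) (chain_start _))))).imp_right fun h => h.trans (by decide +kernel)) (by decide +kernel) (by decide +kernel)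
end H0.XSuzU
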